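import Mathlib
import Cfsg.Agent.Helper13.TIDefs2

set_option autoImplicit false

/-!
# S5961, piece DUALANN
-/

namespace Cfsg.Agent.Helper60.TI5961

open Module Polynomial
open Cfsg.Agent.Helper42.SpForm Cfsg.Agent.Helper42.SpGroup Cfsg.Agent.Helper42.SpModels
open Cfsg.Agent.Helper13.TIsp Cfsg.Agent.Helper90.BG
open Cfsg.Agent.Helper11.TI5955 Cfsg.Agent.Helper58.TI5955 Cfsg.Agent.Helper59.TI5955
open Cfsg.Agent.Helper51.TI5955 Cfsg.Agent.Helper70.TI5955

section geom

variable {F : Type*} [Field F] {V : Type*} [AddCommGroup V] [Module F V] [FiniteDimensional F V]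
  (B : LinearMap.BilinForm F V)

/-- over a finite field, `expand (q^k) g = g^(q^k)` -/
theorem dualann_expand [Fintype F] (g : F[X]) (k : ℕ) :
    expand F (Fintype.card F ^ k) g = g ^ (Fintype.card F ^ k) := by
  induction k with
  | zero => simp
  | succ k ih =>
    rw [pow_succ, expand_mul, FiniteField.expand_card, map_pow, ih, ← pow_mul]

omit [FiniteDimensional F V] in
/-- a semisimple endomorphism has `ker (A^n) = ker A` -/
theorem dualann_ker_pow (A : Module.End F V) (hA : A.IsSemisimple) (n : ℕ) (w : V)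
    (hw : (A ^ n) w = 0) : A w = 0 := by
  have hker : LinearMap.ker A ∈ A.invtSubmodule := by
    rw [Module.End.mem_invtSubmodule]
    intro x hx
    rw [Submodule.mem_comap, LinearMap.mem_ker]
    rw [LinearMap.mem_ker] at hx
    rw [hx, map_zero]
  obtain ⟨q, hq, hcompl⟩ := Module.End.isSemisimple_iff.1 hA _ hker
  rw [Module.End.mem_invtSubmodule] at hq
  have hqA : ∀ x ∈ q, A x ∈ q := fun x hx => hq hx
  have key : ∀ m : ℕ, ∀ x ∈ q, (A ^ m) x = 0 → x = 0 := by
    intro m
    induction m with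
    | zero =>
      intro x _ hx
      simpa using hx
    | succ m ih =>
      intro x hx hx0
      rw [pow_succ, Module.End.mul_apply] at hx0
      have h1 := ih (A x) (hqA x hx) hx0
      have h2 : x ∈ LinearMap.ker A ⊓ q := ⟨LinearMap.mem_ker.2 h1, hx⟩
      rw [hcompl.inf_eq_bot] at h2
      exact (Submodule.mem_bot F).1 h2
  have hw' : w ∈ LinearMap.ker A ⊔ q := by
    rw [hcompl.sup_eq_top]
    exact Submodule.mem_top
  obtain ⟨w₁, hw₁, w₂, hw₂, rfl⟩ := Submodule.mem_sup.1 hw'
  rw [LinearMap.mem_ker] at hw₁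
  rcases Nat.eq_zero_or_pos n with hn | hn
  · rw [hn, pow_zero, Module.End.one_apply] at hw
    rw [hw, map_zero]
  · have h1 : (A ^ n) w₁ = 0 := by
      obtain ⟨m, rfl⟩ : ∃ m, n = m + 1 := ⟨n - 1, by omega⟩
      rw [pow_succ, Module.End.mul_apply, hw₁, map_zero]
    rw [map_add, h1, zero_add] at hw
    have h2 := key n w₂ hw₂ hw
    rw [map_add, hw₁, h2, map_zero, add_zero]

/-- DUALANN: if `T^Q = T⁻¹` with `Q` a power of `q`, a polynomial killing `U₁` kills every invariant
`U₂` paired nondegenerately with `U₁`.  (`B (g(T^Q) w) u = B w (g(T) u)`; `g(T^Q) = g(T)^Q` by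
`FiniteField.expand_card`; `T` is semisimple.) -/
theorem dual_ann [Fintype F] (T : Module.End F V) (hT : Preserves B T) (r : ℕ)
    (hrF : (r : F) ≠ 0) (hTr : T ^ r = 1) (k : ℕ) (hQ : T ^ (Fintype.card F ^ k) * T = 1)
    (U₁ U₂ : Submodule F V) (hU₂ : U₂.map T ≤ U₂)
    (hpair : ∀ w ∈ U₂, (∀ u ∈ U₁, B w u = 0) → w = 0) (g : F[X])
    (hg : ∀ u ∈ U₁, aeval T g u = 0) : ∀ w ∈ U₂, aeval T g w = 0 := by
  classical
  obtain ⟨Q, hQdef⟩ : ∃ Q, Q = Fintype.card F ^ k := ⟨_, rfl⟩
  rw [← hQdef] at hQ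
  obtain ⟨S, hS⟩ : ∃ S : Module.End F V, S = T ^ Q := ⟨_, rfl⟩
  rw [← hS] at hQ
  have hTS : T * S = 1 := by
    rw [hS, ← pow_succ', pow_succ, ← hS]
    exact hQ
  -- the adjoint of `S` is `T`
  have hadj1 : ∀ w u, B (S w) u = B w (T u) := by
    intro w u
    have h1 := hT (S w) u
    rw [← Module.End.mul_apply, hTS, Module.End.one_apply] at h1
    exact h1.symm
  have hadjpow : ∀ n : ℕ, ∀ w u, B ((S ^ n) w) u = B w ((T ^ n) u) := by
    intro n
    induction n with
    | zero =>
      intro w u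
      simp
    | succ n ih =>
      intro w u
      rw [pow_succ', Module.End.mul_apply, hadj1, ih, ← Module.End.mul_apply, ← pow_succ]
  have hadj : ∀ (p : F[X]) (w u : V), B (aeval S p w) u = B w (aeval T p u) := by
    intro p w u
    rw [aeval_eq_sum_range, aeval_eq_sum_range]
    simp only [LinearMap.sum_apply, LinearMap.smul_apply, map_sum, map_smul, hadjpow,
      smul_eq_mul]
  -- semisimplicity
  have hsq : Squarefree (X ^ r - 1 : F[X]) := (X_pow_sub_one_separable_iff.2 hrF).squarefree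
  have hTss : T.IsSemisimple := by
    apply Module.End.isSemisimple_of_squarefree_aeval_eq_zero hsq
    rw [map_sub, map_pow, aeval_X, map_one, hTr, sub_self]
  have hAss : (aeval T g).IsSemisimple := hTss.aeval g
  have hSg : aeval S g = (aeval T g) ^ Q := by
    rw [hS, ← expand_aeval, hQdef, dualann_expand, map_pow]
  intro w hw
  apply dualann_ker_pow (aeval T g) hAss Q w
  rw [← hSg]
  apply hpair
  · rw [hSg, ← map_pow]
    exact aeval_mem T U₂ hU₂ _ hw
  · intro u hu
    rw [hadj, hg u hu, map_zero]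

end geom

end Cfsg.Agent.Helper60.TI5961
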