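import Mathlib
import Cfsg.Agent.Helper13.TIDefs2

set_option autoImplicit false

/-!
# S5961, piece PERM
-/

namespace Cfsg.Agent.Helper60.TI5961

open Module Polynomial
open Cfsg.Agent.Helper42.SpForm Cfsg.Agent.Helper42.SpGroup Cfsg.Agent.Helper42.SpModels
open Cfsg.Agent.Helper13.TIsp Cfsg.Agent.Helper90.BG
open Cfsg.Agent.Helper11.TI5955 Cfsg.Agent.Helper58.TI5955 Cfsg.Agent.Helper59.TI5955
open Cfsg.Agent.Helper51.TI5955 Cfsg.Agent.Helper70.TI5955

section geom

variable {F : Type*} [Field F] {V : Type*} [AddCommGroup V] [Module F V] [FiniteDimensional F V]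
  (B : LinearMap.BilinForm F V)

/-- PERM: a decomposition permuted nontrivially by `T` (`T^r = 1`): the orbit sums
`v + T v + ... + T^(r-1) v`, `v ∈ D j₀`, are fixed; the vectors `(T - 1) T^s v`, `s < r - 1`, are
independent. -/
theorem perm_bounds (T : Module.End F V) (r : ℕ) [Fact r.Prime] (hTr : T ^ r = 1) {t : ℕ}
    (D : Fin t → Submodule F V) (a : ℕ) (hfr : ∀ j, finrank F (D j) = a) (hind : iSupIndep D)
    (σ : Equiv.Perm (Fin t)) (hσ : ∀ j, (D j).map T = D (σ j)) (hσ1 : σ ≠ 1) :
    a ≤ finrank F (LinearMap.ker (T - 1)) ∧ a * (r - 1) ≤ finrank F (LinearMap.range (T - 1)) := by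
  classical
  have hrp : r.Prime := Fact.out
  rcases Nat.eq_zero_or_pos a with ha | ha
  · rw [ha]
    simp
  have hne : ∀ j, D j ≠ ⊥ := by
    intro j h
    have h1 := hfr j
    rw [h, finrank_bot] at h1
    omega
  have hinj : Function.Injective D := hind.injective hne
  have hmap : ∀ (k : ℕ) (j : Fin t), (D j).map (T ^ k) = D ((σ ^ k) j) := by
    intro k
    induction k with
    | zero =>
      intro j
      simp [Module.End.one_eq_id]
    | succ k ih =>
      intro j
      rw [pow_succ', Module.End.mul_eq_comp, Submodule.map_comp, ih, hσ, pow_succ',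
        Equiv.Perm.mul_apply]
  have hσr : ∀ j, (σ ^ r) j = j := by
    intro j
    apply hinj
    rw [← hmap, hTr]
    simp [Module.End.one_eq_id]
  obtain ⟨j₀, hj₀⟩ : ∃ j₀, σ j₀ ≠ j₀ := by
    by_contra hcon
    push Not at hcon
    exact hσ1 (Equiv.ext hcon)
  have hfinj : ∀ k l : ℕ, k < r → l < r → (σ ^ k) j₀ = (σ ^ l) j₀ → k = l := by
    have key : ∀ k l : ℕ, k ≤ l → l < r → (σ ^ k) j₀ = (σ ^ l) j₀ → k = l := by
      intro k l hkl hl h
      by_contra hne'
      have hm : 0 < l - k := by omega
      have h1 : (σ ^ (l - k)) j₀ = j₀ := by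
        have h2 : (σ ^ l) j₀ = (σ ^ k) ((σ ^ (l - k)) j₀) := by
          rw [← Equiv.Perm.mul_apply, ← pow_add]
          congr 2
          omega
        rw [h2] at h
        exact ((σ ^ k).injective h).symm
      have hcop : Nat.gcd (l - k) r = 1 := by
        rw [Nat.gcd_comm]
        exact (Nat.Prime.coprime_iff_not_dvd hrp).2
          (fun hd => by have := Nat.le_of_dvd hm hd; omega)
      have hp1 : Function.IsPeriodicPt σ (l - k) j₀ := by
        rw [Function.IsPeriodicPt, Function.IsFixedPt, Equiv.Perm.iterate_eq_pow]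
        exact h1
      have hp2 : Function.IsPeriodicPt σ r j₀ := by
        rw [Function.IsPeriodicPt, Function.IsFixedPt, Equiv.Perm.iterate_eq_pow]
        exact hσr j₀
      have hd : Function.minimalPeriod σ j₀ ∣ 1 := by
        have h3 := Nat.dvd_gcd hp1.minimalPeriod_dvd hp2.minimalPeriod_dvd
        rwa [hcop] at h3
      have h3 : Function.minimalPeriod σ j₀ = 1 := Nat.dvd_one.1 hd
      exact hj₀ (Function.minimalPeriod_eq_one_iff_isFixedPt.1 h3)
    intro k l hk hl h
    rcases le_total k l with hkl | hkl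
    · exact key k l hkl hl h
    · exact (key l k hkl hk h.symm).symm
  have hE : iSupIndep (fun k : Fin r => D ((σ ^ (k : ℕ)) j₀)) := by
    have hf : Function.Injective (fun k : Fin r => (σ ^ (k : ℕ)) j₀) := by
      intro k l h
      exact Fin.ext (hfinj k l k.isLt l.isLt h)
    exact hind.comp hf
  have hTinj : ∀ (k : ℕ) (x : V), k ≤ r → (T ^ k) x = 0 → x = 0 := by
    intro k x hk hx
    have h1 : (T ^ (r - k)) ((T ^ k) x) = x := by
      rw [← Module.End.mul_apply, ← pow_add, Nat.sub_add_cancel hk, hTr, Module.End.one_apply]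
    rw [← h1, hx, map_zero]
  have hL : ∀ u : ℕ → V, (∀ k, u k ∈ D j₀) → ∑ k ∈ Finset.range r, (T ^ k) (u k) = 0 →
      ∀ k, k < r → u k = 0 := by
    intro u hu hsum k hk
    have h1 := (iSupIndep_iff_finsetSum_eq_zero_imp_eq_zero _).1 hE Finset.univ
      (fun k : Fin r => (T ^ (k : ℕ)) (u k)) (fun i _ => ?_) ?_ ⟨k, hk⟩ (Finset.mem_univ _)
    · exact hTinj k (u k) (le_of_lt hk) h1
    · rw [← hmap]
      exact Submodule.mem_map_of_mem (hu _)
    · rw [Fin.sum_univ_eq_sum_range (fun k => (T ^ k) (u k)) r]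
      exact hsum
  obtain ⟨m, rfl⟩ : ∃ m, r = m + 1 := ⟨r - 1, by have := hrp.pos; omega⟩
  rw [Nat.add_sub_cancel]
  constructor
  · obtain ⟨N, hN⟩ : ∃ N : Module.End F V, N = ∑ k ∈ Finset.range (m + 1), T ^ k := ⟨_, rfl⟩
    have hTN : (T - 1) * N = 0 := by rw [hN, mul_geom_sum, hTr, sub_self]
    have hΦinj : Function.Injective (N ∘ₗ (D j₀).subtype) := by
      rw [← LinearMap.ker_eq_bot, LinearMap.ker_eq_bot']
      intro v hv
      rw [LinearMap.comp_apply, hN, LinearMap.sum_apply] at hv
      have h1 := hL (fun _ => (v : V)) (fun _ => v.2) hv 0 hrp.pos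
      exact Subtype.ext h1
    have hrange : LinearMap.range (N ∘ₗ (D j₀).subtype) ≤ LinearMap.ker (T - 1) := by
      rintro _ ⟨v, rfl⟩
      rw [LinearMap.mem_ker, LinearMap.comp_apply, ← Module.End.mul_apply, hTN]
      rfl
    calc a = finrank F (D j₀) := (hfr j₀).symm
      _ = finrank F (LinearMap.range (N ∘ₗ (D j₀).subtype)) :=
        (LinearMap.finrank_range_of_inj hΦinj).symm
      _ ≤ finrank F (LinearMap.ker (T - 1)) := Submodule.finrank_mono hrange
  · obtain ⟨Φ, hΦ⟩ : ∃ Φ : (Fin m → D j₀) →ₗ[F] V,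
        Φ = ∑ s : Fin m, (T ^ (s : ℕ)) ∘ₗ (D j₀).subtype ∘ₗ LinearMap.proj s := ⟨_, rfl⟩
    have hΦapp : ∀ w, Φ w = ∑ s : Fin m, (T ^ (s : ℕ)) (w s : V) := by
      intro w
      rw [hΦ, LinearMap.sum_apply]
      rfl
    have hinj2 : Function.Injective ((T - 1) ∘ₗ Φ) := by
      rw [← LinearMap.ker_eq_bot, LinearMap.ker_eq_bot']
      intro w hw
      obtain ⟨w', hw'⟩ : ∃ w' : ℕ → V,
          w' = fun s => if h : s < m then (w ⟨s, h⟩ : V) else 0 := ⟨_, rfl⟩
      have hw'mem : ∀ s, w' s ∈ D j₀ := by
        intro s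
        rw [hw']
        dsimp only
        split_ifs with h
        · exact (w ⟨s, h⟩).2
        · exact Submodule.zero_mem _
      have hw'm : w' m = 0 := by
        rw [hw']
        simp
      have hΦw : Φ w = ∑ s ∈ Finset.range m, (T ^ s) (w' s) := by
        rw [hΦapp, ← Fin.sum_univ_eq_sum_range (fun s => (T ^ s) (w' s)) m]
        apply Finset.sum_congr rfl
        intro s _
        rw [hw']
        simp only [dif_pos s.isLt]
      have hsum : ∑ k ∈ Finset.range (m + 1),
          (T ^ k) (w' k - if k = 0 then 0 else w' (k - 1)) = 0 := by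
        simp only [map_sub, Finset.sum_sub_distrib]
        have h1 : ∑ k ∈ Finset.range (m + 1), (T ^ k) (w' k) = Φ w := by
          rw [hΦw, Finset.sum_range_succ, hw'm, map_zero, add_zero]
        have h2 : ∑ k ∈ Finset.range (m + 1), (T ^ k) (if k = 0 then 0 else w' (k - 1))
            = T (Φ w) := by
          rw [hΦw, map_sum, Finset.sum_range_succ']
          simp only [Nat.add_one_ne_zero, if_false, Nat.add_sub_cancel, if_true, map_zero,
            add_zero]
          apply Finset.sum_congr rfl
          intro k _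
          rw [pow_succ', Module.End.mul_apply]
        rw [h1, h2]
        have h3 : T (Φ w) - Φ w = 0 := by
          have h4 : ((T - 1) ∘ₗ Φ) w = 0 := hw
          rw [LinearMap.comp_apply, LinearMap.sub_apply, Module.End.one_apply] at h4
          exact h4
        rw [← neg_sub, h3, neg_zero]
      have hu := hL (fun k => w' k - if k = 0 then 0 else w' (k - 1)) (fun k => by
        apply Submodule.sub_mem _ (hw'mem k)
        split_ifs
        · exact Submodule.zero_mem _
        · exact hw'mem _) hsum
      have hz : ∀ k, k < m + 1 → w' k = 0 := by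
        intro k
        induction k with
        | zero =>
          intro hk
          have h5 := hu 0 hk
          simpa using h5
        | succ k ih =>
          intro hk
          have h5 := hu (k + 1) hk
          simp only [Nat.add_one_ne_zero, if_false, Nat.add_sub_cancel] at h5
          rw [sub_eq_zero] at h5
          rw [h5]
          exact ih (by omega)
      funext s
      apply Subtype.ext
      have h6 := hz s (by have := s.isLt; omega)
      rw [hw'] at h6
      simp only [dif_pos s.isLt] at h6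
      exact h6
    have hrange2 : LinearMap.range ((T - 1) ∘ₗ Φ) ≤ LinearMap.range (T - 1) := by
      rintro _ ⟨w, rfl⟩
      exact ⟨Φ w, rfl⟩
    have hdim : finrank F (Fin m → D j₀) = a * m := by
      rw [Module.finrank_pi_fintype, Finset.sum_const, Finset.card_univ, Fintype.card_fin, hfr,
        smul_eq_mul, mul_comm]
    calc a * m = finrank F (Fin m → D j₀) := hdim.symm
      _ = finrank F (LinearMap.range ((T - 1) ∘ₗ Φ)) :=
        (LinearMap.finrank_range_of_inj hinj2).symm
      _ ≤ finrank F (LinearMap.range (T - 1)) := Submodule.finrank_mono hrange2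

end geom

end Cfsg.Agent.Helper60.TI5961
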