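import Mathlib
import Cfsg.Agent.Helper13.TKDefs

set_option autoImplicit false

/-!
# S5956, piece BAD2D
-/

namespace Cfsg.Agent.Helper60.TI5956

open Module Polynomial
open Cfsg.Agent.Helper42.SpForm Cfsg.Agent.Helper42.SpGroup Cfsg.Agent.Helper42.SpModels
open Cfsg.Agent.Helper13.TIsp Cfsg.Agent.Helper90.BG
open Cfsg.Agent.Helper11.TI5955 Cfsg.Agent.Helper58.TI5955 Cfsg.Agent.Helper59.TI5955
open Cfsg.Agent.Helper51.TI5955 Cfsg.Agent.Helper70.TI5955
open Cfsg.Agent.Helper39.TI5961 Cfsg.Agent.Helper58.TI5961 Cfsg.Agent.Helper59.TI5961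
open Cfsg.Agent.Helper60.TI5961 Cfsg.Agent.Helper31.TI5961 Cfsg.Agent.Helper19.TI5961

section geom

variable {F : Type*} [Field F] {V : Type*} [AddCommGroup V] [Module F V] [FiniteDimensional F V]
  (B : LinearMap.BilinForm F V)

/-- BAD2D (case b): for an `a`-type involution with `ker N = range N`, every invariant nondegenerate
subspace has dimension divisible by 4.  (`V = W ⊕ W^⊥`, so `ker (N|W) = N W`; `β u v = B u (N v)` is
alternating on `W` with radical `ker (N|W)`, hence `dim W / 2` is even.) -/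
theorem bad_two_dvd (halt : ∀ v, B v v = 0) (hnd : ∀ v, (∀ w, B v w = 0) → v = 0)
    (h2 : (2 : F) = 0) (T : Module.End F V) (hT : Preserves B T) (hT2 : T ^ 2 = 1)
    (hq : ∀ v, B v ((T - 1) v) = 0)
    (hkr : LinearMap.ker (T - 1) ≤ LinearMap.range (T - 1))
    (W : Submodule F V) (hWT : W.map T ≤ W) (hW : NondegOn B W) : 4 ∣ finrank F W := by
  classical
  obtain ⟨N, hN⟩ : ∃ N : Module.End F V, N = T - 1 := ⟨_, rfl⟩
  rw [← hN] at hq hkr
  have hNapp : ∀ v, N v = T v - v := by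
    intro v
    rw [hN, LinearMap.sub_apply, Module.End.one_apply]
  have hTT : ∀ v, T (T v) = v := by
    intro v
    rw [← Module.End.mul_apply, ← sq, hT2, Module.End.one_apply]
  have hNN : ∀ v, N (N v) = 0 := by
    intro v
    rw [hNapp, hNapp, map_sub, hTT]
    have h1 : v - T v - (T v - v) = (2 : F) • (v - T v) := by
      rw [two_smul]
      abel
    rw [h1, h2, zero_smul]
  have hadj : ∀ u v, B (N u) v = B u (N v) := by
    intro u v
    have h1 := hT u (T v)
    rw [hTT] at h1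
    rw [hNapp, hNapp, map_sub, LinearMap.sub_apply, map_sub, h1]
  have hNinv : ∀ U : Submodule F V, U.map T ≤ U → ∀ v ∈ U, N v ∈ U := by
    intro U hU v hv
    rw [hNapp]
    exact U.sub_mem (hU (Submodule.mem_map_of_mem hv)) hv
  have hNW := hNinv W hWT
  have htop : NondegOn B ⊤ := fun v _ h => hnd v (fun w => h w Submodule.mem_top)
  obtain ⟨P, -, hPT, -, hWP, hsup, -, -, -⟩ :=
    nd_perp B halt T hT 2 (by norm_num) hT2 ⊤ W htop hW le_top le_top hWT
  have hNP := hNinv P hPT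
  have hK : W ⊓ LinearMap.ker N = W.map N := by
    apply le_antisymm
    · rintro w ⟨hwW, hwK⟩
      obtain ⟨v, rfl⟩ := hkr hwK
      have hv : v ∈ W ⊔ P := by
        rw [hsup]
        exact Submodule.mem_top
      obtain ⟨v₁, hv₁, v₂, hv₂, rfl⟩ := Submodule.mem_sup.1 hv
      have h3 : N v₂ ∈ W ⊓ P := by
        refine ⟨?_, hNP v₂ hv₂⟩
        have h4 : N v₂ = N (v₁ + v₂) - N v₁ := by
          rw [map_add]
          abel
        rw [h4]
        exact W.sub_mem hwW (hNW v₁ hv₁)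
      rw [hWP, Submodule.mem_bot] at h3
      rw [map_add, h3, add_zero]
      exact Submodule.mem_map_of_mem hv₁
    · rintro _ ⟨w, hw, rfl⟩
      exact ⟨hNW w hw, LinearMap.mem_ker.2 (hNN w)⟩
  obtain ⟨C', hC'⟩ := Submodule.exists_isCompl (W ⊓ LinearMap.ker N)
  obtain ⟨C, hCdef⟩ : ∃ C : Submodule F V, C = C' ⊓ W := ⟨_, rfl⟩
  have hCW : C ≤ W := hCdef ▸ inf_le_right
  have hCK : C ⊓ (W ⊓ LinearMap.ker N) = ⊥ := by
    rw [eq_bot_iff, ← hC'.inf_eq_bot, hCdef]
    exact le_inf inf_le_right (inf_le_left.trans inf_le_left)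
  have hCsup : ∀ w ∈ W, ∃ c ∈ C, ∃ k ∈ W ⊓ LinearMap.ker N, w = c + k := by
    intro w hw
    have h1 : w ∈ (W ⊓ LinearMap.ker N) ⊔ C' := by
      rw [hC'.sup_eq_top]
      exact Submodule.mem_top
    obtain ⟨k, hk, c, hc, rfl⟩ := Submodule.mem_sup.1 h1
    refine ⟨c, ?_, k, hk, add_comm k c⟩
    rw [hCdef]
    refine ⟨hc, ?_⟩
    have h3 : c = (k + c) - k := by abel
    rw [h3]
    exact W.sub_mem hw hk.1
  obtain ⟨β, hβ⟩ : ∃ β : LinearMap.BilinForm F V, ∀ u v, β u v = B u (N v) :=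
    ⟨B.compl₂ N, fun u v => rfl⟩
  have hβalt : ∀ v, β v v = 0 := fun v => by
    rw [hβ]
    exact hq v
  have hβC : NondegOn β C := by
    intro u hu hu0
    have huW := hCW hu
    have h1 : ∀ w ∈ W, B (N u) w = 0 := by
      intro w hw
      obtain ⟨c, hc, k, hk, rfl⟩ := hCsup w hw
      rw [hadj, map_add, map_add, ← hβ, hu0 c hc, LinearMap.mem_ker.1 hk.2, map_zero, add_zero]
    have h3 : N u = 0 := hW (N u) (hNW u huW) h1
    have h4 : u ∈ C ⊓ (W ⊓ LinearMap.ker N) := ⟨hu, huW, LinearMap.mem_ker.2 h3⟩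
    rw [hCK, Submodule.mem_bot] at h4
    exact h4
  obtain ⟨t, ht⟩ := (ti_lag β hβalt C hβC).1
  have hCinj : finrank F (C.map N) = finrank F C := by
    have hinj : Function.Injective (N.domRestrict C) := by
      rw [← LinearMap.ker_eq_bot, LinearMap.ker_eq_bot']
      intro c hc
      have hc' : N (c : V) = 0 := hc
      have h4 : (c : V) ∈ C ⊓ (W ⊓ LinearMap.ker N) :=
        ⟨c.2, hCW c.2, LinearMap.mem_ker.2 hc'⟩
      rw [hCK, Submodule.mem_bot] at h4
      exact Subtype.ext h4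
    have h5 := LinearMap.finrank_range_of_inj hinj
    rw [LinearMap.range_domRestrict] at h5
    exact h5
  have hmapeq : C.map N = W.map N := by
    apply le_antisymm (Submodule.map_mono hCW)
    rintro _ ⟨w, hw, rfl⟩
    obtain ⟨c, hc, k, hk, rfl⟩ := hCsup w hw
    rw [map_add, LinearMap.mem_ker.1 hk.2, add_zero]
    exact Submodule.mem_map_of_mem hc
  have hsupW : C ⊔ (W ⊓ LinearMap.ker N) = W := by
    apply le_antisymm (sup_le hCW inf_le_left)
    intro w hw
    obtain ⟨c, hc, k, hk, rfl⟩ := hCsup w hw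
    exact Submodule.add_mem _ (Submodule.mem_sup_left hc) (Submodule.mem_sup_right hk)
  have hdim : finrank F W = finrank F C + finrank F (W ⊓ LinearMap.ker N : Submodule F V) := by
    have h5 := Submodule.finrank_sup_add_finrank_inf_eq C (W ⊓ LinearMap.ker N)
    rw [hCK, finrank_bot, add_zero, hsupW] at h5
    exact h5
  rw [hdim, hK, ← hmapeq, hCinj, ht]
  exact ⟨t, by ring⟩

end geom

end Cfsg.Agent.Helper60.TI5956
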