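import Mathlib
import Cfsg.Agent.Helper13.TKDefs

set_option autoImplicit false

/-!
# S5956, piece ATOM2
-/

namespace Cfsg.Agent.Helper60.TI5956

open Module Polynomial
open Cfsg.Agent.Helper42.SpForm Cfsg.Agent.Helper42.SpGroup Cfsg.Agent.Helper42.SpModels
open Cfsg.Agent.Helper13.TIsp Cfsg.Agent.Helper90.BG
open Cfsg.Agent.Helper11.TI5955 Cfsg.Agent.Helper58.TI5955 Cfsg.Agent.Helper59.TI5955
open Cfsg.Agent.Helper51.TI5955 Cfsg.Agent.Helper70.TI5955
open Cfsg.Agent.Helper39.TI5961 Cfsg.Agent.Helper58.TI5961 Cfsg.Agent.Helper59.TI5961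
open Cfsg.Agent.Helper60.TI5961 Cfsg.Agent.Helper31.TI5961 Cfsg.Agent.Helper19.TI5961

section geom

variable {F : Type*} [Field F] {V : Type*} [AddCommGroup V] [Module F V] [FiniteDimensional F V]
  (B : LinearMap.BilinForm F V)

omit [FiniteDimensional F V] in
/-- a family with "nondegenerate Gram matrix" is independent and spans a nondegenerate subspace -/
theorem atom2_gram_nd {ι : Type*} [Fintype ι] (z : ι → V)
    (h : ∀ α : ι → F, (∀ j, ∑ i, α i * B (z i) (z j) = 0) → α = 0) :
    LinearIndependent F z ∧ NondegOn B (Submodule.span F (Set.range z)) := by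
  constructor
  · rw [Fintype.linearIndependent_iff]
    intro α hα i
    have h1 := h α (fun j => by
      have h3 := congrArg (fun x => B x (z j)) hα
      simpa [map_sum, map_smul, LinearMap.sum_apply] using h3)
    rw [h1]
    rfl
  · intro v hv hv0
    obtain ⟨α, rfl⟩ := (Submodule.mem_span_range_iff_exists_fun F).1 hv
    have h1 := h α (fun j => by
      have h3 := hv0 (z j) (Submodule.subset_span ⟨j, rfl⟩)
      simpa [map_sum, map_smul, LinearMap.sum_apply] using h3)
    rw [h1]
    simp

/-- ATOM2 (case b): char 2 involution; `N = T - 1`, `N ^ 2 = 0`, `B (N u) v = B u (N v)`,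
`B (N u) (N v) = 0`.  If `N = 0` on `E`: `atom_c`.  If some `v ∈ E` has `B v (N v) ≠ 0`: `span {v, N v}`.
Else pick `v ∈ E` with `N v ≠ 0`, `w ∈ E` with `B (N v) w ≠ 0`: `span {v, N v, w, N w}` (dim 4). -/
theorem atom_two (halt : ∀ v, B v v = 0) (h2 : (2 : F) = 0) (T : Module.End F V)
    (hT : Preserves B T) (hT2 : T ^ 2 = 1) (E : Submodule F V) (hET : E.map T ≤ E)
    (hE : NondegOn B E) (hE0 : E ≠ ⊥) :
    ∃ Z : Submodule F V, Z ≤ E ∧ Z.map T ≤ Z ∧ NondegOn B Z ∧
      (finrank F Z = 2 ∨ finrank F Z = 4) := by
  classical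
  obtain ⟨N, hN⟩ : ∃ N : Module.End F V, N = T - 1 := ⟨_, rfl⟩
  have hNapp : ∀ v, N v = T v - v := by
    intro v
    rw [hN, LinearMap.sub_apply, Module.End.one_apply]
  have hTN : ∀ v, T v = N v + v := by
    intro v
    rw [hNapp]
    abel
  have hskew : ∀ u v, B u v = -B v u := by
    intro u v
    have h := halt (u + v)
    simp only [map_add, LinearMap.add_apply, halt, zero_add, add_zero] at h
    linear_combination h
  have hTT : ∀ v, T (T v) = v := by
    intro v
    rw [← Module.End.mul_apply, ← sq, hT2, Module.End.one_apply]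
  have hNN : ∀ v, N (N v) = 0 := by
    intro v
    rw [hNapp, hNapp, map_sub, hTT]
    have h1 : v - T v - (T v - v) = (2 : F) • (v - T v) := by
      rw [two_smul]
      abel
    rw [h1, h2, zero_smul]
  have hadj : ∀ u v, B (N u) v = B u (N v) := by
    intro u v
    have h1 := hT u (T v)
    rw [hTT] at h1
    rw [hNapp, hNapp, map_sub, LinearMap.sub_apply, map_sub, h1]
  have hNE : ∀ v ∈ E, N v ∈ E := by
    intro v hv
    rw [hNapp]
    exact E.sub_mem (hET (Submodule.mem_map_of_mem hv)) hv
  by_cases hc1 : ∀ v ∈ E, N v = 0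
  · obtain ⟨Z, hZE, hZ, hZ2⟩ := atom_c B halt E hE hE0
    refine ⟨Z, hZE, ?_, hZ, Or.inl hZ2⟩
    rintro _ ⟨z, hz, rfl⟩
    rw [hTN, hc1 z (hZE hz), zero_add]
    exact hz
  · by_cases hc2 : ∃ v ∈ E, B v (N v) ≠ 0
    · obtain ⟨v, hv, ha⟩ := hc2
      obtain ⟨z, hz⟩ : ∃ z : Fin 2 → V, z = ![v, N v] := ⟨_, rfl⟩
      have e0 : z 0 = v := by rw [hz]; rfl
      have e1 : z 1 = N v := by rw [hz]; rfl
      have hg := atom2_gram_nd B z (by
        intro α hα
        have h0 := hα 0
        have h1 := hα 1
        rw [Fin.sum_univ_two, e0, e1] at h0 h1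
        rw [halt, hskew (N v) v] at h0
        rw [halt] at h1
        have hα1 : α 1 = 0 := by
          have h3 : α 1 * B v (N v) = 0 := by linear_combination -h0
          exact (mul_eq_zero.1 h3).resolve_right ha
        have hα0 : α 0 = 0 := by
          have h3 : α 0 * B v (N v) = 0 := by linear_combination h1
          exact (mul_eq_zero.1 h3).resolve_right ha
        funext i
        fin_cases i
        · exact hα0
        · exact hα1)
      refine ⟨Submodule.span F (Set.range z), ?_, ?_, hg.2, Or.inl ?_⟩
      · rw [Submodule.span_le]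
        rintro _ ⟨i, rfl⟩
        fin_cases i
        · exact e0 ▸ hv
        · exact e1 ▸ hNE v hv
      · rw [Submodule.map_span_le]
        rintro _ ⟨i, rfl⟩
        fin_cases i
        · show T (z 0) ∈ _
          rw [e0, hTN]
          exact Submodule.add_mem _ (Submodule.subset_span ⟨1, e1⟩)
            (Submodule.subset_span ⟨0, e0⟩)
        · show T (z 1) ∈ _
          rw [e1, hTN, hNN, zero_add]
          exact Submodule.subset_span ⟨1, e1⟩
      · rw [finrank_span_eq_card hg.1, Fintype.card_fin]
    · push Not at hc1 hc2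
      obtain ⟨v, hv, hNv⟩ := hc1
      obtain ⟨w, hw, ha⟩ : ∃ w ∈ E, B (N v) w ≠ 0 := by
        by_contra hcon
        push Not at hcon
        exact hNv (hE (N v) (hNE v hv) hcon)
      obtain ⟨z, hz⟩ : ∃ z : Fin 4 → V, z = ![v, N v, w, N w] := ⟨_, rfl⟩
      have e0 : z 0 = v := by rw [hz]; rfl
      have e1 : z 1 = N v := by rw [hz]; rfl
      have e2 : z 2 = w := by rw [hz]; rfl
      have e3 : z 3 = N w := by rw [hz]; rfl
      have q1 : B v (N v) = 0 := hc2 v hv
      have q2 : B w (N w) = 0 := hc2 w hw
      have q3 : B (N v) v = 0 := by rw [hskew, q1, neg_zero]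
      have q4 : B (N w) w = 0 := by rw [hskew, q2, neg_zero]
      have q5 : B v (N w) = B (N v) w := (hadj v w).symm
      have q6 : B (N w) v = -B (N v) w := by rw [hskew, q5]
      have q7 : B w (N v) = -B (N v) w := hskew _ _
      have q8 : B (N v) (N w) = 0 := by rw [hadj, hNN, map_zero]
      have q9 : B (N w) (N v) = 0 := by rw [hadj, hNN, map_zero]
      have q10 : B w v = -B v w := hskew _ _
      have hg := atom2_gram_nd B z (by
        intro α hα
        have h0 := hα 0
        have h1 := hα 1
        have h2' := hα 2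
        have h3 := hα 3
        rw [Fin.sum_univ_four, e0, e1, e2, e3] at h0 h1 h2' h3
        rw [halt, q3, q10, q6] at h0
        rw [q1, halt, q7, q9] at h1
        rw [halt, q4] at h2'
        rw [q5, q8, q2, halt] at h3
        have hα2 : α 2 = 0 := by
          have h4 : α 2 * B (N v) w = 0 := by linear_combination -h1
          exact (mul_eq_zero.1 h4).resolve_right ha
        have hα0 : α 0 = 0 := by
          have h4 : α 0 * B (N v) w = 0 := by linear_combination h3
          exact (mul_eq_zero.1 h4).resolve_right ha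
        have hα1 : α 1 = 0 := by
          rw [hα0] at h2'
          have h4 : α 1 * B (N v) w = 0 := by linear_combination h2'
          exact (mul_eq_zero.1 h4).resolve_right ha
        have hα3 : α 3 = 0 := by
          rw [hα2] at h0
          have h4 : α 3 * B (N v) w = 0 := by linear_combination -h0
          exact (mul_eq_zero.1 h4).resolve_right ha
        funext i
        fin_cases i
        · exact hα0
        · exact hα1
        · exact hα2
        · exact hα3)
      refine ⟨Submodule.span F (Set.range z), ?_, ?_, hg.2, Or.inr ?_⟩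
      · rw [Submodule.span_le]
        rintro _ ⟨i, rfl⟩
        fin_cases i
        · exact e0 ▸ hv
        · exact e1 ▸ hNE v hv
        · exact e2 ▸ hw
        · exact e3 ▸ hNE w hw
      · rw [Submodule.map_span_le]
        rintro _ ⟨i, rfl⟩
        fin_cases i
        · show T (z 0) ∈ _
          rw [e0, hTN]
          exact Submodule.add_mem _ (Submodule.subset_span ⟨1, e1⟩)
            (Submodule.subset_span ⟨0, e0⟩)
        · show T (z 1) ∈ _
          rw [e1, hTN, hNN, zero_add]
          exact Submodule.subset_span ⟨1, e1⟩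
        · show T (z 2) ∈ _
          rw [e2, hTN]
          exact Submodule.add_mem _ (Submodule.subset_span ⟨3, e3⟩)
            (Submodule.subset_span ⟨2, e2⟩)
        · show T (z 3) ∈ _
          rw [e3, hTN, hNN, zero_add]
          exact Submodule.subset_span ⟨3, e3⟩
      · rw [finrank_span_eq_card hg.1, Fintype.card_fin]

end geom

end Cfsg.Agent.Helper60.TI5956
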