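import Mathlib
import Cfsg.Prelude.Def_GeometricClasses
import Cfsg.Prelude.Def_Classical
import Cfsg.Agent.Helper58.TSDefs
import Cfsg.Agent.Helper45.Spinor
import Cfsg.Agent.Helper31.OTNF
import Cfsg.Agent.Helper98.OPar
import Cfsg.Agent.Helper33.ODisc

/-!
# Sub-CALL TSR2 (helper90), piece SKEX (helper60)

If `-1` is a nonsquare and the type of the `2d`-dimensional space is plus exactly for even `d`,
then some isometry has square `-1`: in an orthonormal basis (for the polar form) indexed by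
`Fin d ⊕ Fin d` take `b (inl j) ↦ b (inr j)`, `b (inr j) ↦ - b (inl j)`.
-/

set_option autoImplicit false

namespace Cfsg.Agent.Helper60.TSR2

open Module Cfsg Cfsg.Geo Cfsg.Agent.Helper58.TS
open scoped MatrixGroups

variable {ι : Type} [Fintype ι] [DecidableEq ι] {F : Type*} [Field F] [Fintype F]

/-- polar against a linear combination of vectors orthogonal to `x` -/
theorem polar_sum_zero {κ : Type*} (Q : QuadraticForm F (ι → F)) (x : ι → F) (w : κ → ι → F)
    (c : κ → F) (s : Finset κ) (h : ∀ k ∈ s, QuadraticMap.polar ⇑Q x (w k) = 0) :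
    QuadraticMap.polar ⇑Q x (∑ k ∈ s, c k • w k) = 0 := by
  have e : QuadraticMap.polar ⇑Q x (∑ k ∈ s, c k • w k)
      = QuadraticMap.polarBilin Q x (∑ k ∈ s, c k • w k) := rfl
  rw [e, map_sum]
  apply Finset.sum_eq_zero
  intro k hk
  rw [map_smul, QuadraticMap.polarBilin_apply_apply, h k hk, smul_zero]

/-- `Q` of a linear combination of pairwise orthogonal vectors -/
theorem quad_sum_orth {κ : Type*} [DecidableEq κ] (Q : QuadraticForm F (ι → F)) (w : κ → ι → F)
    (horth : ∀ k l, k ≠ l → QuadraticMap.polar ⇑Q (w k) (w l) = 0) (c : κ → F) (s : Finset κ) :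
    Q (∑ k ∈ s, c k • w k) = ∑ k ∈ s, c k ^ 2 * Q (w k) := by
  induction s using Finset.induction_on with
  | empty => simp
  | insert a s ha ih =>
    rw [Finset.sum_insert ha, Finset.sum_insert ha, QuadraticMap.map_add (⇑Q), ih,
      QuadraticMap.polar_smul_left,
      polar_sum_zero Q (w a) w c s (fun k hk => horth a k (by rintro rfl; exact ha hk)),
      smul_zero, add_zero, QuadraticMap.map_smul, smul_eq_mul, pow_two]

set_option maxHeartbeats 1600000 in
/-- SKEX -/
theorem r2_skew_ex (Q : (ι → F) → F) (hQ : IsNondegenerateQuadraticForm Q) (h2 : (2 : F) ≠ 0)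
    (d : ℕ) (hd : 1 ≤ d) (hcard : Fintype.card ι = 2 * d) (hm1 : ¬ IsSquare (-1 : F))
    (htype : IsPlusTypeOn Q ⊤ ↔ Even d) :
    ∃ g : ↥(Cfsg.isometryGroup F Q),
      ((g : GL ι F) : Matrix ι ι F) * ((g : GL ι F) : Matrix ι ι F) = -1 := by
  classical
  set Q' := Cfsg.Agent.Helper98.op_qf Q hQ with hQ'def
  have hfin : finrank F (⊤ : Submodule F (ι → F)) = Fintype.card ι := by
    rw [finrank_top, Module.finrank_fintype_fun_eq_card]
  obtain ⟨s, hs⟩ : ∃ s, Fintype.card ι = s + 1 := ⟨Fintype.card ι - 1, by omega⟩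
  have hD : Cfsg.Agent.Helper90.HT.HNondegOn (Cfsg.Agent.Helper43.OT.ph Q') ⊤ := by
    intro v _ hv
    exact (Cfsg.Agent.Helper98.op_qf_nondeg Q hQ).1 v (fun w => hv w Submodule.mem_top)
  obtain ⟨b, δ, hδ, hli, hspan, horth, hone, hlast⟩ :=
    Cfsg.Agent.Helper31.OT5972.ot_nf Q' h2 ⊤ hD s (by rw [hfin, hs])
  -- the basis
  let B₀ : Module.Basis (Fin (s + 1)) F (ι → F) := Module.Basis.mk hli (by rw [hspan])
  have hB₀ : ∀ j, B₀ j = b j := fun j => Module.Basis.mk_apply hli _ j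
  -- Gram determinant
  have hgram : (Matrix.of fun i j => QuadraticMap.polar Q (B₀ i) (B₀ j)) =
      Matrix.diagonal (fun j : Fin (s + 1) => if j = Fin.last s then δ else 1) := by
    ext i j
    rw [Matrix.of_apply, hB₀, hB₀]
    by_cases hij : i = j
    · subst hij
      rw [Matrix.diagonal_apply_eq]
      by_cases hi : i = Fin.last s
      · rw [if_pos hi, hi]; exact hlast
      · rw [if_neg hi]; exact hone i hi
    · rw [Matrix.diagonal_apply_ne _ hij]
      exact horth i j hij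
  have hdet : (Matrix.of fun i j => QuadraticMap.polar Q (B₀ i) (B₀ j)).det = δ := by
    rw [hgram, Matrix.det_diagonal]
    simp
  have hplus := Cfsg.Agent.Helper33.o_plus_iff_disc h2 Q hQ hd hcard B₀
  rw [hdet] at hplus
  -- `δ` is a square
  have hδsq : IsSquare δ := by
    by_cases hev : Even d
    · have h1 := hplus.1 (htype.2 hev)
      rwa [hev.neg_one_pow, one_mul] at h1
    · have h1 : ¬ IsSquare ((-1 : F) ^ d * δ) := fun h => hev (htype.1 (hplus.2 h))
      have hodd : Odd d := Nat.not_even_iff_odd.1 hev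
      rw [hodd.neg_one_pow] at h1
      have h3 := Cfsg.Agent.Helper45.isSquare_mul_of_not h2 hm1 h1
      have e : (-1 : F) * (-1 * δ) = δ := by ring
      rwa [e] at h3
  obtain ⟨c, hc⟩ := hδsq
  have hc0 : c ≠ 0 := by
    rintro rfl
    rw [mul_zero] at hc
    exact hδ hc
  -- orthonormal basis
  let cf : Fin (s + 1) → F := fun j => if j = Fin.last s then c⁻¹ else 1
  have hcf : ∀ j, IsUnit (cf j) := by
    intro j
    rw [isUnit_iff_ne_zero]
    show (if j = Fin.last s then c⁻¹ else 1) ≠ 0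
    split_ifs
    · exact inv_ne_zero hc0
    · exact one_ne_zero
  let B₁ : Module.Basis (Fin (s + 1)) F (ι → F) := B₀.isUnitSMul hcf
  have hB₁ : ∀ j, B₁ j = cf j • b j := fun j => by
    rw [Module.Basis.isUnitSMul_apply, hB₀]
  have hB₁orth : ∀ i j, i ≠ j → QuadraticMap.polar ⇑Q' (B₁ i) (B₁ j) = 0 := by
    intro i j hij
    rw [hB₁, hB₁, QuadraticMap.polar_smul_left, QuadraticMap.polar_smul_right]
    have h := horth i j hij
    rw [Cfsg.Agent.Helper43.OT.ph_apply] at h
    rw [h, smul_zero, smul_zero]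
  have hB₁one : ∀ j, Q' (B₁ j) = 2⁻¹ := by
    intro j
    rw [hB₁, QuadraticMap.map_smul, smul_eq_mul]
    have h := Cfsg.Agent.Helper43.OT.ph_self Q' (b j)
    by_cases hj : j = Fin.last s
    · have hcfj : cf j = c⁻¹ := if_pos hj
      rw [hj, hlast] at h
      have hX : Q' (b (Fin.last s)) = 2⁻¹ * δ := by
        rw [h, ← mul_assoc, inv_mul_cancel₀ h2, one_mul]
      rw [hcfj, hj, hX, hc]
      field_simp
    · have hcfj : cf j = 1 := if_neg hj
      rw [hone j hj] at h
      rw [hcfj, one_mul, one_mul]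
      exact eq_inv_of_mul_eq_one_right h.symm
  -- reindexing by `Fin d ⊕ Fin d`
  let e : Fin d ⊕ Fin d ≃ Fin (s + 1) := finSumFinEquiv.trans (finCongr (by omega))
  let B₂ : Module.Basis (Fin d ⊕ Fin d) F (ι → F) := B₁.reindex e.symm
  have hB₂ : ∀ k, B₂ k = B₁ (e k) := fun k => by
    rw [Module.Basis.reindex_apply]
    rfl
  have hB₂orth : ∀ k l, k ≠ l → QuadraticMap.polar ⇑Q' (B₂ k) (B₂ l) = 0 := fun k l hkl => by
    rw [hB₂, hB₂]
    exact hB₁orth _ _ (fun h => hkl (e.injective h))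
  have hB₂one : ∀ k, Q' (B₂ k) = 2⁻¹ := fun k => by
    rw [hB₂]
    exact hB₁one _
  -- the target family
  let t : Fin d ⊕ Fin d → (ι → F) :=
    fun k => Sum.elim (fun j => B₂ (Sum.inr j)) (fun j => - B₂ (Sum.inl j)) k
  have htorth : ∀ k l, k ≠ l → QuadraticMap.polar ⇑Q' (t k) (t l) = 0 := by
    rintro (j | j) (l | l) hkl
    · show QuadraticMap.polar ⇑Q' (B₂ (Sum.inr j)) (B₂ (Sum.inr l)) = 0
      exact hB₂orth _ _ (fun h => hkl (by rw [Sum.inr.inj h]))
    · show QuadraticMap.polar ⇑Q' (B₂ (Sum.inr j)) (- B₂ (Sum.inl l)) = 0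
      rw [QuadraticMap.polar_neg_right, hB₂orth _ _ (by simp), neg_zero]
    · show QuadraticMap.polar ⇑Q' (- B₂ (Sum.inl j)) (B₂ (Sum.inr l)) = 0
      rw [QuadraticMap.polar_neg_left, hB₂orth _ _ (by simp), neg_zero]
    · show QuadraticMap.polar ⇑Q' (- B₂ (Sum.inl j)) (- B₂ (Sum.inl l)) = 0
      rw [QuadraticMap.polar_neg_left, QuadraticMap.polar_neg_right,
        hB₂orth _ _ (fun h => hkl (by rw [Sum.inl.inj h])), neg_zero, neg_zero]
  have htone : ∀ k, Q' (t k) = 2⁻¹ := by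
    rintro (j | j)
    · exact hB₂one _
    · show Q' (- B₂ (Sum.inl j)) = 2⁻¹
      rw [QuadraticMap.map_neg]
      exact hB₂one _
  let gl : (ι → F) →ₗ[F] (ι → F) := B₂.constr F t
  have hgl : ∀ k, gl (B₂ k) = t k := fun k => Module.Basis.constr_basis B₂ F t k
  have hgg : gl.comp gl = -LinearMap.id := by
    apply B₂.ext
    rintro (j | j)
    · show gl (gl (B₂ (Sum.inl j))) = -(B₂ (Sum.inl j))
      rw [hgl]
      show gl (B₂ (Sum.inr j)) = _
      rw [hgl]
      rfl
    · show gl (gl (B₂ (Sum.inr j))) = -(B₂ (Sum.inr j))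
      rw [hgl]
      show gl (- B₂ (Sum.inl j)) = _
      rw [map_neg, hgl]
      rfl
  have hiso : ∀ v, Q (gl v) = Q v := by
    intro v
    have hgv : gl v = ∑ k, B₂.equivFun v k • t k := Module.Basis.constr_apply_fintype F B₂ t v
    have hv : v = ∑ k, B₂.equivFun v k • B₂ k := (B₂.sum_equivFun v).symm
    have h3 : Q' v = ∑ k, B₂.equivFun v k ^ 2 * Q' (B₂ k) := by
      conv_lhs => rw [hv]
      exact quad_sum_orth Q' (fun k => B₂ k) hB₂orth _ _
    show Q' (gl v) = Q' v
    rw [hgv, quad_sum_orth Q' t htorth, h3]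
    apply Finset.sum_congr rfl
    intro k _
    rw [htone, hB₂one]
  -- the matrix
  let M : Matrix ι ι F := LinearMap.toMatrix' gl
  have hMv : ∀ v, M.mulVec v = gl v := fun v => by
    rw [← Matrix.toLin'_apply, Matrix.toLin'_toMatrix']
  have hMM : M * M = -1 := by
    rw [← LinearMap.toMatrix'_comp, hgg, map_neg, LinearMap.toMatrix'_id]
  let g₀ : GL ι F := ⟨M, -M, by rw [mul_neg, hMM, neg_neg], by rw [neg_mul, hMM, neg_neg]⟩
  have hg₀ : g₀ ∈ Cfsg.isometryGroup F Q := by
    intro u v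
    show Q (M.mulVec u) = Q u
    rw [hMv]
    exact hiso u
  exact ⟨⟨g₀, hg₀⟩, hMM⟩

end Cfsg.Agent.Helper60.TSR2
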