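import Mathlib
import Cfsg.Agent.Helper60.RUMain

/-!
# Two generators of `Sp_{2n}(F)`: the closure lemma (helper60)

`sS N ε` acts on every plane `⟨e_k, f_k⟩`, `k < N`, by `e ↦ f`, `f ↦ -e - ε f` (of order 3 for
`ε = 1`, of order 4 for `ε = 0`) and trivially on the plane `N`.  A plane-closed set containing
`e_N`, stable under `sS` and under `ru3` on the hyperplane `f_0^⊥`, contains every non-zero vector.
-/

set_option autoImplicit false
set_option linter.unusedSectionVars false
set_option linter.unusedVariables false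
set_option linter.unusedSimpArgs false

namespace Cfsg.Agent.Helper60.RU

open Matrix
open Cfsg.Agent.Helper5
open Cfsg.Agent.Helper13 (sympForm_add_left sympForm_add_right sympForm_smul_left
  sympForm_smul_right sympForm_sub_left sympForm_sub_right sympForm_neg_left sympForm_neg_right
  sympForm_zero_left sympForm_zero_right sympForm_self sympForm_swap)

section sS
variable {F : Type*} [Field F] {N : ℕ}

theorem rE_eq_zero {k : ℕ} (hk : N < k) : rE N F k = 0 := by
  simp only [rE]
  rw [rv_eq_zero hk]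
  funext i
  rcases i with i | i <;> rfl

/-- the element `e_k ↦ f_k`, `f_k ↦ -e_k - ε f_k` (`k < N`), identity on the plane `N` -/
def sS (N : ℕ) {F : Type*} [Field F] (ε : F) : Matrix.symplecticGroup (Fin (N + 1)) F :=
  ⟨fromBlocks (diagonal (fun i : Fin (N + 1) => if i.val = N then (1 : F) else 0))
      (diagonal (fun i : Fin (N + 1) => if i.val = N then (0 : F) else -1))
      (diagonal (fun i : Fin (N + 1) => if i.val = N then (0 : F) else 1))
      (diagonal (fun i : Fin (N + 1) => if i.val = N then (1 : F) else -ε)), by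
    rw [SymplecticGroup.fromBlocks_mem_iff]
    simp only [diagonal_transpose, diagonal_mul_diagonal]
    refine ⟨?_, ?_, ?_⟩
    · congr 1; funext i; split_ifs <;> ring
    · congr 1; funext i; split_ifs <;> ring
    · ext i j
      by_cases hij : i = j
      · subst hij
        simp only [Matrix.sub_apply, diagonal_apply_eq, one_apply_eq]
        split_ifs <;> ring
      · simp only [Matrix.sub_apply, diagonal_apply_ne _ hij, one_apply_ne hij, sub_zero]⟩

theorem sS_mulVec (ε : F) (x y : Fin (N + 1) → F) :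
    (sS N ε).1 *ᵥ Sum.elim x y
      = Sum.elim (fun i => (if i.val = N then (1 : F) else 0) * x i
          + (if i.val = N then (0 : F) else -1) * y i)
        (fun i => (if i.val = N then (0 : F) else 1) * x i
          + (if i.val = N then (1 : F) else -ε) * y i) := by
  show fromBlocks _ _ _ _ *ᵥ Sum.elim x y = _
  rw [fromBlocks_mulVec]
  congr 1 <;> (funext i; simp only [Pi.add_apply, mulVec_diagonal, Function.comp_apply,
    Sum.elim_inl, Sum.elim_inr])

theorem sS_rE (ε : F) {k : ℕ} (hk : k < N) : (sS N ε).1 *ᵥ rE N F k = rF N F k := by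
  simp only [rE, rF]
  rw [sS_mulVec]
  funext i
  rcases i with i | i
  · simp only [Sum.elim_inl, Pi.zero_apply, rv_apply, mul_zero, add_zero]
    by_cases h2 : i.val = k
    · have h1 : ¬ (k = N) := by omega
      simp [h1, h2]
    · simp [h2]
  · simp only [Sum.elim_inr, Pi.zero_apply, rv_apply, mul_zero, add_zero]
    by_cases h2 : i.val = k
    · have h1 : ¬ (k = N) := by omega
      simp [h1, h2]
    · simp [h2]

theorem sS_rF (ε : F) {k : ℕ} (hk : k < N) :
    (sS N ε).1 *ᵥ rF N F k = (-1 : F) • rE N F k + (-ε) • rF N F k := by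
  simp only [rE, rF]
  rw [sS_mulVec]
  funext i
  rcases i with i | i
  · simp only [Sum.elim_inl, Pi.zero_apply, rv_apply, mul_zero, zero_add, Pi.add_apply,
      Pi.smul_apply, smul_eq_mul, add_zero]
    by_cases h2 : i.val = k
    · have h1 : ¬ (k = N) := by omega
      simp [h1, h2]
    · simp [h2]
  · simp only [Sum.elim_inr, Pi.zero_apply, rv_apply, mul_zero, zero_add, Pi.add_apply,
      Pi.smul_apply, smul_eq_mul, add_zero]
    by_cases h2 : i.val = k
    · have h1 : ¬ (k = N) := by omega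
      simp [h1, h2]
    · simp [h2]

theorem sS_rE_top (ε : F) : (sS N ε).1 *ᵥ rE N F N = rE N F N := by
  simp only [rE]
  rw [sS_mulVec]
  funext i
  rcases i with i | i
  · simp only [Sum.elim_inl, Pi.zero_apply, rv_apply, mul_zero, add_zero]
    by_cases h2 : i.val = N
    · simp [h2]
    · simp [h2]
  · simp only [Sum.elim_inr, Pi.zero_apply, rv_apply, mul_zero, add_zero]
    by_cases h2 : i.val = N
    · simp [h2]
    · simp [h2]

theorem sS_rF_top (ε : F) : (sS N ε).1 *ᵥ rF N F N = rF N F N := by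
  simp only [rF]
  rw [sS_mulVec]
  funext i
  rcases i with i | i
  · simp only [Sum.elim_inl, Pi.zero_apply, rv_apply, mul_zero, zero_add]
    by_cases h2 : i.val = N
    · simp [h2]
    · simp [h2]
  · simp only [Sum.elim_inr, Pi.zero_apply, rv_apply, mul_zero, zero_add]
    by_cases h2 : i.val = N
    · simp [h2]
    · simp [h2]

theorem sS_inv_rF (ε : F) {k : ℕ} (hk : k < N) : ((sS N ε)⁻¹).1 *ᵥ rF N F k = rE N F k := by
  rw [← sS_rE ε hk, sp_inv_mulVec]

theorem sS_inv_rF_top (ε : F) : ((sS N ε)⁻¹).1 *ᵥ rF N F N = rF N F N := by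
  have h := sp_inv_mulVec (sS N ε) (rF N F N)
  rw [sS_rF_top] at h
  exact h

end sS

section pv
variable {F : Type*} [Field F] {N : ℕ}

/-- a vector in the planes `k + 1` and `k` -/
def pv (N : ℕ) {F : Type*} [Field F] (k : ℕ) (a b a' b' : F) : Fin (N + 1) ⊕ Fin (N + 1) → F :=
  a • rE N F (k + 1) + b • rF N F (k + 1) + a' • rE N F k + b' • rF N F k

theorem sf_pv {k : ℕ} (hk : k + 1 ≤ N) (a b a' b' c d c' d' : F) :
    Cfsg.sympForm (N + 1) F (pv N k a b a' b') (pv N k c d c' d')
      = (b * c - a * d) + (b' * c' - a' * d') := by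
  unfold pv
  simp only [sympForm_add_left, sympForm_add_right, sympForm_smul_left, sympForm_smul_right,
    sf_EE, sf_FF, sf_EF_self hk, sf_FE_self hk, sf_EF_self (show k ≤ N by omega),
    sf_FE_self (show k ≤ N by omega), sf_EF_ne (show k + 1 ≠ k by omega),
    sf_EF_ne (show k ≠ k + 1 by omega), sf_FE_ne (show k + 1 ≠ k by omega),
    sf_FE_ne (show k ≠ k + 1 by omega)]
  ring

theorem pv_add_mem {V : Set (Fin (N + 1) ⊕ Fin (N + 1) → F)} (hV : PlaneClosed V) {k : ℕ}
    (hk : k + 1 ≤ N) {a b a' b' c d c' d' A B A' B' r : F}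
    (h1 : pv N k a b a' b' ∈ V) (h2 : pv N k c d c' d' ∈ V)
    (hr : (b * c - a * d) + (b' * c' - a' * d') = r) (hr0 : r ≠ 0)
    (e1 : A = a + c) (e2 : B = b + d) (e3 : A' = a' + c') (e4 : B' = b' + d') :
    pv N k A B A' B' ∈ V := by
  have := hV.add _ h1 _ h2 (by rw [sf_pv hk, hr]; exact hr0)
  have e : pv N k A B A' B' = pv N k a b a' b' + pv N k c d c' d' := by
    rw [e1, e2, e3, e4]; unfold pv; module
  rw [e]
  exact this

theorem pv_smul_mem {V : Set (Fin (N + 1) ⊕ Fin (N + 1) → F)} (hV : PlaneClosed V) {k : ℕ}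
    {a b a' b' A B A' B' : F} (t : F) (ht : t ≠ 0) (h1 : pv N k a b a' b' ∈ V)
    (e1 : A = t * a) (e2 : B = t * b) (e3 : A' = t * a') (e4 : B' = t * b') :
    pv N k A B A' B' ∈ V := by
  have := hV.smul t ht _ h1
  have e : pv N k A B A' B' = t • pv N k a b a' b' := by
    rw [e1, e2, e3, e4]; unfold pv; module
  rw [e]
  exact this

theorem pv_upper {V : Set (Fin (N + 1) ⊕ Fin (N + 1) → F)} (hV : PlaneClosed V) {k : ℕ}
    (hk : k + 1 ≤ N) (hE : rE N F (k + 1) ∈ V) (hF : rF N F (k + 1) ∈ V) (a b : F)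
    (hab : ¬ (a = 0 ∧ b = 0)) : pv N k a b 0 0 ∈ V := by
  have := plane_mem hV hk hE hF a b hab
  have e : pv N k a b 0 0 = a • rE N F (k + 1) + b • rF N F (k + 1) := by
    unfold pv; module
  rw [e]
  exact this

theorem pv_lower {V : Set (Fin (N + 1) ⊕ Fin (N + 1) → F)} (hV : PlaneClosed V) {k : ℕ}
    (hk : k ≤ N) (hE : rE N F k ∈ V) (hF : rF N F k ∈ V) (a b : F)
    (hab : ¬ (a = 0 ∧ b = 0)) : pv N k 0 0 a b ∈ V := by
  have := plane_mem hV hk hE hF a b hab
  have e : pv N k 0 0 a b = a • rE N F k + b • rF N F k := by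
    unfold pv; module
  rw [e]
  exact this

end pv

section closure2
variable {F : Type*} [Field F] {N : ℕ}

/-- one step down: from the plane `k + 1` to the plane `k` -/
theorem closure2_step {V : Set (Fin (N + 1) ⊕ Fin (N + 1) → F)} (hV : PlaneClosed V) (ε : F)
    (hε : (2 : F) + ε ≠ 0)
    (h3 : ∀ v ∈ V, Cfsg.sympForm (N + 1) F v (rF N F 0) = 0 → (ru3 N F).1 *ᵥ v ∈ V)
    (hs : ∀ v ∈ V, (sS N ε).1 *ᵥ v ∈ V) (hs' : ∀ v ∈ V, ((sS N ε)⁻¹).1 *ᵥ v ∈ V)
    {k : ℕ} (hk : k + 1 ≤ N) (hE : rE N F (k + 1) ∈ V) (hF : rF N F (k + 1) ∈ V) :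
    rE N F k ∈ V ∧ rF N F k ∈ V ∧ rE N F k + rE N F (k + 1) ∈ V := by
  have hm1 : (-1 : F) ≠ 0 := neg_ne_zero.mpr one_ne_zero
  have hraw : rF N F (k + 1) + rF N F k ∈ V := by
    have := h3 _ hF (sf_FF _ _)
    rw [ru3_rF_succ hk] at this
    exact this
  have hA1 : pv N k 0 1 0 1 ∈ V := by
    have e : pv N k (0 : F) 1 0 1 = rF N F (k + 1) + rF N F k := by unfold pv; module
    rw [e]; exact hraw
  have hd : pv N k 0 0 1 (1 + ε) ∈ V ∧ pv N k 0 0 (-1) 1 ∈ V := by
    by_cases htop : k + 1 = N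
    · have hA2 : pv N k 0 1 (-1) (-ε) ∈ V := by
        have := hs _ hraw
        rw [Matrix.mulVec_add, htop, sS_rF_top, sS_rF ε (by omega : k < N)] at this
        have e : pv N k (0 : F) 1 (-1) (-ε)
            = rF N F N + ((-1 : F) • rE N F k + (-ε) • rF N F k) := by
          unfold pv; rw [htop]; module
        rw [e]; exact this
      have hA3 : pv N k 0 1 1 0 ∈ V := by
        have := hs' _ hraw
        rw [Matrix.mulVec_add, htop, sS_inv_rF_top, sS_inv_rF ε (by omega : k < N)] at this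
        have e : pv N k (0 : F) 1 1 0 = rF N F N + rE N F k := by
          unfold pv; rw [htop]; module
        rw [e]; exact this
      have hnA2 : pv N k 0 (-1) 1 ε ∈ V :=
        pv_smul_mem hV (-1) hm1 hA2 (by ring) (by ring) (by ring) (by ring)
      have hnA3 : pv N k 0 (-1) (-1) 0 ∈ V :=
        pv_smul_mem hV (-1) hm1 hA3 (by ring) (by ring) (by ring) (by ring)
      exact ⟨pv_add_mem hV hk hA1 hnA2 (by ring : _ = (1 : F)) one_ne_zero
          (by ring) (by ring) (by ring) (by ring),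
        pv_add_mem hV hk hA1 hnA3 (by ring : _ = (-1 : F)) hm1
          (by ring) (by ring) (by ring) (by ring)⟩
    · have hkN : k + 1 < N := by omega
      have hA2 : pv N k (-1) (-ε) (-1) (-ε) ∈ V := by
        have := hs _ hraw
        rw [Matrix.mulVec_add, sS_rF ε hkN, sS_rF ε (by omega : k < N)] at this
        have e : pv N k (-1 : F) (-ε) (-1) (-ε)
            = ((-1 : F) • rE N F (k + 1) + (-ε) • rF N F (k + 1))
              + ((-1 : F) • rE N F k + (-ε) • rF N F k) := by
          unfold pv; module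
        rw [e]; exact this
      have hA3 : pv N k 1 0 1 0 ∈ V := by
        have := hs' _ hraw
        rw [Matrix.mulVec_add, sS_inv_rF ε hkN, sS_inv_rF ε (by omega : k < N)] at this
        have e : pv N k (1 : F) 0 1 0 = rE N F (k + 1) + rE N F k := by
          unfold pv; module
        rw [e]; exact this
      have hU1 : pv N k (-1) (-ε) 0 0 ∈ V := pv_upper hV hk hE hF (-1) (-ε) (fun h => hm1 h.1)
      have hU2 : pv N k 0 1 0 0 ∈ V := pv_upper hV hk hE hF 0 1 (fun h => one_ne_zero h.2)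
      have hU3 : pv N k 1 0 0 0 ∈ V := pv_upper hV hk hE hF 1 0 (fun h => one_ne_zero h.1)
      have hB1 : pv N k (-1) (1 - ε) 0 1 ∈ V :=
        pv_add_mem hV hk hA1 hU1 (by ring : _ = (-1 : F)) hm1
          (by ring) (by ring) (by ring) (by ring)
      have hB2 : pv N k (-1) (1 - ε) (-1) (-ε) ∈ V :=
        pv_add_mem hV hk hA2 hU2 (by ring : _ = (1 : F)) one_ne_zero
          (by ring) (by ring) (by ring) (by ring)
      have hnB2 : pv N k 1 (ε - 1) 1 ε ∈ V :=
        pv_smul_mem hV (-1) hm1 hB2 (by ring) (by ring) (by ring) (by ring)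
      have hC1 : pv N k 1 1 0 1 ∈ V :=
        pv_add_mem hV hk hA1 hU3 (by ring : _ = (1 : F)) one_ne_zero
          (by ring) (by ring) (by ring) (by ring)
      have hC2 : pv N k 1 1 1 0 ∈ V :=
        pv_add_mem hV hk hA3 hU2 (by ring : _ = (-1 : F)) hm1
          (by ring) (by ring) (by ring) (by ring)
      have hnC2 : pv N k (-1) (-1) (-1) 0 ∈ V :=
        pv_smul_mem hV (-1) hm1 hC2 (by ring) (by ring) (by ring) (by ring)
      exact ⟨pv_add_mem hV hk hB1 hnB2 (by ring : _ = (1 : F)) one_ne_zero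
          (by ring) (by ring) (by ring) (by ring),
        pv_add_mem hV hk hC1 hnC2 (by ring : _ = (-1 : F)) hm1
          (by ring) (by ring) (by ring) (by ring)⟩
  obtain ⟨hd12, hd13⟩ := hd
  have hsum : pv N k 0 0 0 (2 + ε) ∈ V :=
    pv_add_mem hV hk hd12 hd13 (by ring : _ = -(2 + ε)) (neg_ne_zero.mpr hε)
      (by ring) (by ring) (by ring) (by ring)
  have hFk' : pv N k 0 0 0 1 ∈ V :=
    pv_smul_mem hV (2 + ε)⁻¹ (inv_ne_zero hε) hsum (by ring) (by ring) (by ring)
      (inv_mul_cancel₀ hε).symm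
  have hnd13 : pv N k 0 0 1 (-1) ∈ V :=
    pv_smul_mem hV (-1) hm1 hd13 (by ring) (by ring) (by ring) (by ring)
  have hEk' : pv N k 0 0 1 0 ∈ V :=
    pv_add_mem hV hk hFk' hnd13 (by ring : _ = (1 : F)) one_ne_zero
      (by ring) (by ring) (by ring) (by ring)
  have hEk : rE N F k ∈ V := by
    have e : rE N F k = pv N k (0 : F) 0 1 0 := by unfold pv; module
    rw [e]; exact hEk'
  have hFk : rF N F k ∈ V := by
    have e : rF N F k = pv N k (0 : F) 0 0 1 := by unfold pv; module
    rw [e]; exact hFk'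
  have hL1 : pv N k 1 0 0 1 ∈ V :=
    pv_add_mem hV hk hA1 (pv_upper hV hk hE hF 1 (-1) (fun h => one_ne_zero h.1))
      (by ring : _ = (1 : F)) one_ne_zero (by ring) (by ring) (by ring) (by ring)
  have hL2 : pv N k 1 0 1 0 ∈ V :=
    pv_add_mem hV hk hL1 (pv_lower hV (by omega) hEk hFk 1 (-1) (fun h => one_ne_zero h.1))
      (by ring : _ = (1 : F)) one_ne_zero (by ring) (by ring) (by ring) (by ring)
  refine ⟨hEk, hFk, ?_⟩
  have e : rE N F k + rE N F (k + 1) = pv N k (1 : F) 0 1 0 := by unfold pv; module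
  rw [e]; exact hL2

/-- **The second closure lemma.** -/
theorem closure2 {V : Set (Fin (N + 1) ⊕ Fin (N + 1) → F)} (hN : 1 ≤ N) (hV : PlaneClosed V)
    (ε : F) (hε : (2 : F) + ε ≠ 0) (h0 : rE N F N ∈ V)
    (h3 : ∀ v ∈ V, Cfsg.sympForm (N + 1) F v (rF N F 0) = 0 → (ru3 N F).1 *ᵥ v ∈ V)
    (h3' : ∀ v ∈ V, Cfsg.sympForm (N + 1) F v (rF N F 0) = 0 → ((ru3 N F)⁻¹).1 *ᵥ v ∈ V)
    (hs : ∀ v ∈ V, (sS N ε).1 *ᵥ v ∈ V) (hs' : ∀ v ∈ V, ((sS N ε)⁻¹).1 *ᵥ v ∈ V) :
    ∀ v : Fin (N + 1) ⊕ Fin (N + 1) → F, v ≠ 0 → v ∈ V := by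
  have h1 : rE N F N + rF N F N ∈ V := by
    have := h3' _ h0 (sf_EF_ne (by omega : N ≠ 0))
    rw [ru3_inv_rE, if_pos rfl, if_neg (by omega), rE_eq_zero (by omega : N < N + 1), add_zero,
      add_zero, one_smul] at this
    exact this
  have hFN : rF N F N ∈ V := by
    have := hV.add _ h1 _ (hV.smul (-1) (neg_ne_zero.mpr one_ne_zero) _ h0) (by
      rw [sympForm_smul_right, sympForm_add_left, sf_EE, sf_FE_self le_rfl]
      simp)
    have e : rF N F N = rE N F N + rF N F N + (-1 : F) • rE N F N := by module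
    rw [e]; exact this
  have desc : ∀ j : ℕ, j ≤ N → rE N F (N - j) ∈ V ∧ rF N F (N - j) ∈ V := by
    intro j
    induction j with
    | zero => intro _; exact ⟨h0, hFN⟩
    | succ j ih =>
      intro hj
      have ih' := ih (by omega)
      have hk : N - j = (N - (j + 1)) + 1 := by omega
      rw [hk] at ih'
      have := closure2_step hV ε hε h3 hs hs' (k := N - (j + 1)) (by omega) ih'.1 ih'.2
      exact ⟨this.1, this.2.1⟩
  have hE : ∀ k, k ≤ N → rE N F k ∈ V := by
    intro k hk
    have := (desc (N - k) (by omega)).1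
    have e : N - (N - k) = k := by omega
    rw [e] at this; exact this
  have hF : ∀ k, k ≤ N → rF N F k ∈ V := by
    intro k hk
    have := (desc (N - k) (by omega)).2
    have e : N - (N - k) = k := by omega
    rw [e] at this; exact this
  have hL : ∀ k, k + 1 ≤ N → rE N F k + rE N F (k + 1) ∈ V := by
    intro k hk
    exact (closure2_step hV ε hε h3 hs hs' hk (hE _ hk) (hF _ hk)).2.2
  exact config_all hV hE hF hL

end closure2

end Cfsg.Agent.Helper60.RU
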