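import Mathlib
import Cfsg.Agent.Helper60.RUGen2

/-!
# `Sp_{2n}(F)` is generated by two elements (helper60)

Generators `x = t(e_N, 1) * sS` and `y = ru3 * t(f_0, a)`, `a` a generator of `Fˣ`.
-/

set_option autoImplicit false
set_option linter.unusedSectionVars false
set_option linter.unusedVariables false
set_option linter.unusedSimpArgs false

namespace Cfsg.Agent.Helper60.RU

open Matrix
open Cfsg.Agent.Helper5
open Cfsg.Agent.Helper13 (sympForm_add_left sympForm_add_right sympForm_smul_left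
  sympForm_smul_right sympForm_sub_left sympForm_sub_right sympForm_neg_left sympForm_neg_right
  sympForm_zero_left sympForm_zero_right sympForm_self sympForm_swap)

section gen2
variable {K F : Type*} [Field K] [Field F] {N : ℕ}

theorem rmapG_sS (f : K →+* F) (ε : K) : rmapG f N (sS N ε) = sS N (f ε) := by
  apply Subtype.ext
  show (fromBlocks (diagonal _) (diagonal _) (diagonal _) (diagonal _)).map f
    = fromBlocks (diagonal _) (diagonal _) (diagonal _) (diagonal _)
  rw [fromBlocks_map, diagonal_map (map_zero f), diagonal_map (map_zero f),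
    diagonal_map (map_zero f), diagonal_map (map_zero f)]
  congr 2 <;> (funext i; split_ifs <;> simp)

theorem ru3_inv_rF_zero : ((ru3 N F)⁻¹).1 *ᵥ rF N F 0 = rF N F 0 := by
  have h := sp_inv_mulVec (ru3 N F) (rF N F 0)
  rw [ru3_rF_zero] at h
  exact h

/-- the generation theorem for two generators -/
theorem gen2_top (f : K →+* F) (hN : 1 ≤ N) (hK : ∀ c : K, ∃ n : ℕ, c = (n : K))
    (ε : K) (hε : (2 : K) + ε ≠ 0)
    (a : F) (hgen : ∀ x : F, x ≠ 0 → ∃ k : ℕ, x = a ^ k)
    (H : Subgroup (Matrix.symplecticGroup (Fin (N + 1)) F))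
    (h1 : spTv (N + 1) (rE N F N) 1 ∈ H) (h2 : sS N (f ε) ∈ H)
    (h3 : ru3 N F * spTv (N + 1) (rF N F 0) a ∈ H) : H = ⊤ := by
  have hV := ratCentres_planeClosed f H
  have h0 : rE N K N ∈ ratCentres f H := by
    intro c
    obtain ⟨n, rfl⟩ := hK c
    rw [map_rE, map_natCast, spTv_natCast]
    exact H.pow_mem h1 n
  have hs : ∀ v ∈ ratCentres f H, (sS N ε).1 *ᵥ v ∈ ratCentres f H := fun v hv =>
    ratCentres_stable f H (sS N ε) (by rw [rmapG_sS]; exact h2) v hv
  have hs' : ∀ v ∈ ratCentres f H, ((sS N ε)⁻¹).1 *ᵥ v ∈ ratCentres f H := fun v hv =>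
    ratCentres_stable f H ((sS N ε)⁻¹) (by rw [map_inv, rmapG_sS]; exact H.inv_mem h2) v hv
  have hu3 : ∀ v ∈ ratCentres f H, Cfsg.sympForm (N + 1) K v (rF N K 0) = 0 →
      (ru3 N K).1 *ᵥ v ∈ ratCentres f H := by
    intro v hv hv0
    refine ratCentres_of_act f H _ h3 v _ hv ?_
    rw [sp_mul_mulVec, spTv_mulVec, ← map_rF f, map_sf, hv0, map_zero, mul_zero, zero_smul, add_zero,
      ← rmapG_ru3 f, rmapG_mulVec]
  have hu3' : ∀ v ∈ ratCentres f H, Cfsg.sympForm (N + 1) K v (rF N K 0) = 0 →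
      ((ru3 N K)⁻¹).1 *ᵥ v ∈ ratCentres f H := by
    intro v hv hv0
    refine ratCentres_of_act f H _ (H.inv_mem h3) v _ hv ?_
    have hv1 : Cfsg.sympForm (N + 1) K (((ru3 N K)⁻¹).1 *ᵥ v) (rF N K 0) = 0 := by
      have := sp_sympForm ((ru3 N K)⁻¹) v (rF N K 0)
      rw [ru3_inv_rF_zero] at this
      rw [this, hv0]
    rw [_root_.mul_inv_rev, sp_mul_mulVec, ← rmapG_ru3 f, ← map_inv, rmapG_mulVec, spTv_inv,
      spTv_mulVec, ← map_rF f, map_sf, hv1, map_zero, mul_zero, zero_smul, add_zero]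
  have hall := closure2 hN hV ε hε h0 hu3 hu3' hs hs'
  have hrat : ∀ (v : Fin (N + 1) ⊕ Fin (N + 1) → K) (c : K), spTv (N + 1) (f ∘ v) (f c) ∈ H := by
    intro v c
    by_cases hv : v = 0
    · have : f ∘ v = 0 := by
        rw [hv]; funext i; simp
      rw [this, spTv_zero_left]
      exact H.one_mem
    · exact hall v hv c
  have hru3 : ru3 N F ∈ H := by
    rw [← rmapG_ru3 f]
    exact rmapG_mem f H hrat _
  have ha' : spTv (N + 1) (rF N F 0) a ∈ H := by
    have := H.mul_mem (H.inv_mem hru3) h3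
    rwa [← mul_assoc, inv_mul_cancel, one_mul] at this
  have ha : spTv (N + 1) (rE N F 0) a ∈ H := by
    obtain ⟨g, hg, hgv⟩ := rmapG_transitive f H hrat (rF N K 0) (rE N K 0)
      (rF_ne_zero (Nat.zero_le N)) (rE_ne_zero (Nat.zero_le N))
    rw [map_rF, map_rE] at hgv
    rw [← hgv, ← spTv_conj]
    exact H.mul_mem (H.mul_mem hg ha') (H.inv_mem hg)
  exact top_of_rational f H (rational_all_of_gen f H hN hrat a ha hgen)

theorem sS_pow_three : (sS N (1 : F)) ^ 3 = 1 := by
  apply sp_ext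
  intro v
  obtain ⟨x, y, rfl⟩ : ∃ x y, v = Sum.elim x y :=
    ⟨v ∘ Sum.inl, v ∘ Sum.inr, (Sum.elim_comp_inl_inr v).symm⟩
  rw [pow_succ, pow_succ, pow_one, sp_mul_mulVec, sp_mul_mulVec, sS_mulVec, sS_mulVec, sS_mulVec,
    sp_coe_one, Matrix.one_mulVec]
  congr 1 <;> funext i <;> by_cases h : i.val = N
  · simp [h]
  · simp only [h, if_false]; ring
  · simp [h]
  · simp only [h, if_false]; ring

theorem sS_pow_four : (sS N (0 : F)) ^ 4 = 1 := by
  apply sp_ext
  intro v
  obtain ⟨x, y, rfl⟩ : ∃ x y, v = Sum.elim x y :=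
    ⟨v ∘ Sum.inl, v ∘ Sum.inr, (Sum.elim_comp_inl_inr v).symm⟩
  rw [pow_succ, pow_succ, pow_succ, pow_one, sp_mul_mulVec, sp_mul_mulVec, sp_mul_mulVec, sS_mulVec,
    sS_mulVec, sS_mulVec, sS_mulVec, sp_coe_one, Matrix.one_mulVec]
  congr 1 <;> funext i <;> by_cases h : i.val = N
  · simp [h]
  · simp only [h, if_false]; ring
  · simp [h]
  · simp only [h, if_false]; ring

/-- extraction of the two commuting factors of coprime orders -/
theorem gen2_extract (p : ℕ) [CharP F p] (ε : F) (m : ℕ) (hm : Nat.Coprime m p)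
    (hSm : (sS N ε) ^ m = 1) (H : Subgroup (Matrix.symplecticGroup (Fin (N + 1)) F))
    (hx : spTv (N + 1) (rE N F N) 1 * sS N ε ∈ H) :
    spTv (N + 1) (rE N F N) 1 ∈ H ∧ sS N ε ∈ H := by
  have hcomm : Commute (spTv (N + 1) (rE N F N) (1 : F)) (sS N ε) := by
    have h := spTv_conj (sS N ε) (rE N F N) (1 : F)
    rw [sS_rE_top, mul_inv_eq_iff_eq_mul] at h
    exact h.symm
  have hxm : (spTv (N + 1) (rE N F N) (1 : F)) ^ m ∈ H := by
    have := H.pow_mem hx m
    rwa [hcomm.mul_pow, hSm, mul_one] at this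
  have htp : (spTv (N + 1) (rE N F N) (1 : F)) ^ p = 1 := by
    rw [← spTv_natCast, CharP.cast_eq_zero, spTv_zero_right]
  have hbez : (m : ℤ) * Nat.gcdA m p + (p : ℤ) * Nat.gcdB m p = 1 := by
    have := Nat.gcd_eq_gcd_ab m p
    rw [hm] at this
    exact_mod_cast this.symm
  have ht : spTv (N + 1) (rE N F N) (1 : F) ∈ H := by
    have e : spTv (N + 1) (rE N F N) (1 : F)
        = ((spTv (N + 1) (rE N F N) (1 : F)) ^ m) ^ (Nat.gcdA m p) := by
      conv_lhs => rw [← zpow_one (spTv (N + 1) (rE N F N) (1 : F)), ← hbez]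
      rw [_root_.zpow_add, _root_.zpow_mul, _root_.zpow_mul, _root_.zpow_natCast,
        _root_.zpow_natCast, htp, _root_.one_zpow, mul_one]
    rw [e]
    exact H.zpow_mem hxm _
  refine ⟨ht, ?_⟩
  have := H.mul_mem (H.inv_mem ht) hx
  rwa [← mul_assoc, inv_mul_cancel, one_mul] at this

end gen2

section final2
variable {F : Type*} [Field F] [Fintype F]

/-- `Sp_{2n}(F)`, `n ≥ 2`, `F` finite, is generated by two elements -/
theorem sp_two_gen (N : ℕ) (hN : 1 ≤ N) :
    ∃ x y : Matrix.symplecticGroup (Fin (N + 1)) F,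
      Subgroup.closure ({x, y} : Set (Matrix.symplecticGroup (Fin (N + 1)) F)) = ⊤ := by
  obtain ⟨p, hp⟩ := CharP.exists F
  have := hp
  have hpp : p.Prime := by
    rcases CharP.char_is_prime_or_zero F p with h | h
    · exact h
    · exfalso
      subst h
      have : CharZero F := CharP.charP_to_charZero F
      exact not_finite F
  have : Fact p.Prime := ⟨hpp⟩
  obtain ⟨a, hgen⟩ := exists_gen_nat F
  have hK : ∀ c : ZMod p, ∃ n : ℕ, c = (n : ZMod p) :=
    fun c => ⟨c.val, (ZMod.natCast_zmod_val c).symm⟩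
  by_cases h3 : p = 3
  · -- `ε = 0`, order 4
    refine ⟨spTv (N + 1) (rE N F N) 1 * sS N (0 : F), ru3 N F * spTv (N + 1) (rF N F 0) a, ?_⟩
    obtain ⟨ht, hS⟩ := gen2_extract p (0 : F) 4 (by rw [h3]; decide) sS_pow_four
      (Subgroup.closure ({spTv (N + 1) (rE N F N) 1 * sS N (0 : F),
        ru3 N F * spTv (N + 1) (rF N F 0) a} : Set (Matrix.symplecticGroup (Fin (N + 1)) F)))
      (Subgroup.subset_closure (by simp))
    apply gen2_top (ZMod.castHom (dvd_refl p) F) hN hK (0 : ZMod p) _ a hgen _ ht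
      (by rw [map_zero]; exact hS) (Subgroup.subset_closure (by simp))
    rw [add_zero]
    intro h
    have h' : ((2 : ℕ) : ZMod p) = 0 := by exact_mod_cast h
    rw [ZMod.natCast_eq_zero_iff, h3] at h'
    omega
  · -- `ε = 1`, order 3
    refine ⟨spTv (N + 1) (rE N F N) 1 * sS N (1 : F), ru3 N F * spTv (N + 1) (rF N F 0) a, ?_⟩
    obtain ⟨ht, hS⟩ := gen2_extract p (1 : F) 3
      ((Nat.coprime_primes Nat.prime_three hpp).2 (fun h => h3 h.symm)) sS_pow_three
      (Subgroup.closure ({spTv (N + 1) (rE N F N) 1 * sS N (1 : F),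
        ru3 N F * spTv (N + 1) (rF N F 0) a} : Set (Matrix.symplecticGroup (Fin (N + 1)) F)))
      (Subgroup.subset_closure (by simp))
    apply gen2_top (ZMod.castHom (dvd_refl p) F) hN hK (1 : ZMod p) _ a hgen _ ht
      (by rw [map_one]; exact hS) (Subgroup.subset_closure (by simp))
    intro h
    have h' : ((3 : ℕ) : ZMod p) = 0 := by
      rw [← h]; push_cast; ring
    rw [ZMod.natCast_eq_zero_iff] at h'
    exact h3 ((Nat.prime_dvd_prime_iff_eq hpp Nat.prime_three).1 h')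

end final2

end Cfsg.Agent.Helper60.RU
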