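import Mathlib
import Cfsg.Prelude.Def_GeometricClasses
import Cfsg.Agent.Helper90.SFRDefs
import Cfsg.Agent.Helper20.IMMB

/-!
# S5965, piece DETB: determinant of a matrix with `x^r = z`, `z` not an `r`-th power
-/

set_option autoImplicit false

namespace Cfsg.Agent.Helper60

open Module Polynomial Cfsg.Agent.Helper90.SFR

/-! ## PIECE DETB -/
theorem det_of_irr {F : Type*} [Field F] (r : ℕ) [Fact r.Prime] (hr2 : r ≠ 2) (n : ℕ)
    (x : Matrix (Fin n) (Fin n) F)
    (z : F) (hz : ∀ b : F, b ^ r ≠ z) (hx : x ^ r = z • (1 : Matrix (Fin n) (Fin n) F)) :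
    ∃ s : ℕ, n = r * s ∧ x.det = z ^ s := by
  classical
  have hrp : r.Prime := Fact.out
  have hr0 : 0 < r := hrp.pos
  obtain ⟨m, rfl⟩ : ∃ m, r = m + 1 := ⟨r - 1, by omega⟩
  have hP : Irreducible (X ^ (m + 1) - C z : F[X]) := X_pow_sub_C_irreducible_of_prime hrp hz
  obtain ⟨T, hTdef⟩ : ∃ T : (Fin n → F) →ₗ[F] (Fin n → F), T = Matrix.toLin' x := ⟨_, rfl⟩
  have hTr : T ^ (m + 1) = z • (1 : Module.End F (Fin n → F)) := by
    have h1 := congrArg (Matrix.toLinAlgEquiv' (R := F) (n := Fin n)) hx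
    rw [map_pow, map_smul, map_one] at h1
    rw [hTdef]
    exact h1
  have hPT : aeval T (X ^ (m + 1) - C z : F[X]) = 0 := by
    rw [map_sub, map_pow, aeval_X, aeval_C, hTr, Algebra.algebraMap_eq_smul_one, sub_self]
  obtain ⟨s, b, hb⟩ := Cfsg.Agent.Helper20.cyc_basis T _ hP hPT (m + 1) natDegree_X_pow_sub_C
    (Nat.succ_pos m)
  have hn : n = (m + 1) * s := by
    have h1 := Module.finrank_eq_card_basis b
    rw [Module.finrank_fin_fun, Fintype.card_prod, Fintype.card_fin, Fintype.card_fin] at h1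
    rw [h1, mul_comm]
  refine ⟨s, hn, ?_⟩
  obtain ⟨d, hd⟩ : ∃ d : Fin (m + 1) → F, d = fun i => if i = Fin.last m then z else 1 :=
    ⟨_, rfl⟩
  have hTb : ∀ (j : Fin s) (i : Fin (m + 1)),
      T (b (j, i)) = d i • b (j, finRotate (m + 1) i) := by
    intro j i
    rw [hb j i, ← Module.End.mul_apply, ← pow_succ']
    by_cases hi : i = Fin.last m
    · have hdi : d i = z := by rw [hd]; simp [hi]
      rw [hdi, hi, finRotate_last, Fin.val_last, hTr]
      rfl
    · have h1 : ((finRotate (m + 1) i : Fin (m + 1)) : ℕ) = i + 1 := coe_finRotate_of_ne_last hi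
      have hdi : d i = 1 := by rw [hd]; simp [hi]
      rw [hdi, one_smul, hb j (finRotate (m + 1) i), h1]
  have hM : LinearMap.toMatrix b b T = Matrix.kroneckerMap (fun a c => a * c)
      (1 : Matrix (Fin s) (Fin s) F)
      ((Equiv.Perm.permMatrix F (finRotate (m + 1))).transpose * Matrix.diagonal d) := by
    ext ⟨j', i'⟩ ⟨j, i⟩
    rw [LinearMap.toMatrix_apply, hTb, map_smul, Matrix.kroneckerMap_apply, Matrix.mul_diagonal,
      Matrix.transpose_apply]
    simp only [Module.Basis.repr_self, Finsupp.smul_apply, smul_eq_mul, Finsupp.single_apply,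
      Matrix.one_apply, Equiv.Perm.permMatrix, PEquiv.toMatrix_apply, Equiv.toPEquiv_apply,
      Option.mem_def, Option.some.injEq, Prod.mk.injEq]
    by_cases h1 : j = j'
    · subst h1
      by_cases h2 : finRotate (m + 1) i = i'
      · simp [h2]
      · simp [h2]
    · have h1' : ¬ j' = j := fun h => h1 h.symm
      simp [h1, h1']
  have hprod : ∏ i, d i = z := by
    rw [hd, Finset.prod_ite_eq']
    simp
  have hsign : (((Equiv.Perm.sign (finRotate (m + 1)) : ℤˣ) : ℤ) : F) = 1 := by
    have hodd : Odd (m + 1) := hrp.odd_of_ne_two hr2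
    have hev : Even m := by
      rcases hodd with ⟨t, ht⟩
      exact ⟨t, by omega⟩
    rw [sign_finRotate, Nat.add_sub_cancel, Even.neg_one_pow hev]
    simp
  rw [← LinearMap.det_toLin' x, ← hTdef, ← LinearMap.det_toMatrix b T, hM, Matrix.det_kronecker,
    Matrix.det_one, one_pow, one_mul, Matrix.det_mul, Matrix.det_transpose,
    Matrix.det_permutation, Matrix.det_diagonal, hprod, hsign, one_mul, Fintype.card_fin]

end Cfsg.Agent.Helper60
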