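import Mathlib
import Cfsg.Prelude.Def_GeometricClasses
import Cfsg.Agent.Helper90.SFRDefs
import Cfsg.Agent.Helper97.SFBasic
import Cfsg.Agent.Helper60.SFRDETB

/-!
# S5965, piece BADB: an element `x` with `x^r = z`, `z` not an `r`-th power, is bad
-/

set_option autoImplicit false

namespace Cfsg.Agent.Helper60

open Module Polynomial Cfsg.Agent.Helper90.SFR

/-- an element of `r`-power order of a finite field which is not an `r`-th power -/
theorem sfr_exists_nonpower {F : Type*} [Field F] [Fintype F] (r : ℕ) [Fact r.Prime]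
    (hr : r ∣ Fintype.card F - 1) :
    ∃ z : F, z ≠ 0 ∧ (∀ b : F, b ^ r ≠ z) ∧
      ∀ s : ℕ, r ^ padicValNat r (Fintype.card F - 1) ∣ s → z ^ s = 1 := by
  classical
  have hrp : r.Prime := Fact.out
  obtain ⟨g, hg⟩ := IsCyclic.exists_generator (α := Fˣ)
  obtain ⟨N, hN⟩ : ∃ N, N = Fintype.card F - 1 := ⟨_, rfl⟩
  rw [← hN] at hr ⊢
  have hord : orderOf g = N := by
    rw [orderOf_eq_card_of_forall_mem_zpowers hg, Nat.card_units, Nat.card_eq_fintype_card, hN]
  have hNpos : 0 < N := by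
    have := Fintype.one_lt_card (α := F)
    omega
  obtain ⟨e, he⟩ : ∃ e, e = padicValNat r N := ⟨_, rfl⟩
  rw [← he]
  obtain ⟨m, hm⟩ : r ^ e ∣ N := he ▸ pow_padicValNat_dvd
  have hrm : ¬ r ∣ m := by
    rintro ⟨t, ht⟩
    have h1 : r ^ (e + 1) ∣ N := ⟨t, by rw [hm, ht, pow_succ]; ring⟩
    rw [he] at h1
    exact pow_succ_padicValNat_not_dvd hNpos.ne' h1
  have hgN : (g : F) ^ N = 1 := by
    rw [hN]
    exact FiniteField.pow_card_sub_one_eq_one _ (Units.ne_zero g)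
  refine ⟨(g : F) ^ m, pow_ne_zero _ (Units.ne_zero g), ?_, ?_⟩
  · intro b hb
    have hb0 : b ≠ 0 := by
      rintro rfl
      rw [zero_pow hrp.ne_zero] at hb
      exact pow_ne_zero _ (Units.ne_zero g) hb.symm
    obtain ⟨N', hN'⟩ := hr
    have hbN : b ^ N = 1 := by
      rw [hN]
      exact FiniteField.pow_card_sub_one_eq_one _ hb0
    have h2 : g ^ (m * N') = 1 := by
      apply Units.ext
      rw [Units.val_pow_eq_pow_val, Units.val_one, pow_mul, ← hb, ← pow_mul, ← hN', hbN]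
    have h3 : N ∣ m * N' := hord ▸ orderOf_dvd_of_pow_eq_one h2
    have hN'pos : 0 < N' := by
      rcases Nat.eq_zero_or_pos N' with h0 | h0
      · rw [h0, mul_zero] at hN'
        omega
      · exact h0
    rw [hN'] at h3
    exact hrm (Nat.dvd_of_mul_dvd_mul_right hN'pos h3)
  · rintro s ⟨t, rfl⟩
    rw [← pow_mul, ← mul_assoc, mul_comm m, ← hm, pow_mul, hgN, one_pow]

/-- a matrix of size `r s` whose `r`-th power is the scalar `z` -/
theorem sfr_exists_root_matrix {F : Type*} [Field F] (r : ℕ) (hr : 0 < r) (z : F) (s : ℕ) :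
    ∃ x : Matrix (Fin (r * s)) (Fin (r * s)) F, x ^ r = z • (1 : Matrix (Fin (r * s)) (Fin (r * s)) F) := by
  classical
  obtain ⟨P, hPdef⟩ : ∃ P : F[X], P = X ^ r - C z := ⟨_, rfl⟩
  have hP0 : P ≠ 0 := by
    rw [hPdef]
    exact X_pow_sub_C_ne_zero hr z
  have hfin : Module.Finite F (AdjoinRoot P) := (AdjoinRoot.powerBasis hP0).finite
  have hrank : finrank F (AdjoinRoot P) = r := by
    rw [(AdjoinRoot.powerBasis hP0).finrank, AdjoinRoot.powerBasis_dim, hPdef,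
      natDegree_X_pow_sub_C]
  have hrankA : finrank F (Fin s → AdjoinRoot P) = r * s := by
    rw [Module.finrank_pi_fintype, Finset.sum_const, Finset.card_univ, Fintype.card_fin, hrank,
      smul_eq_mul, mul_comm]
  have hroot : (AdjoinRoot.root P) ^ r = algebraMap F (AdjoinRoot P) z := by
    have h1 := AdjoinRoot.eval₂_root P
    rw [hPdef] at h1
    rw [eval₂_sub, eval₂_pow, eval₂_X, eval₂_C, ← hPdef] at h1
    rw [AdjoinRoot.algebraMap_eq]
    exact sub_eq_zero.1 h1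
  obtain ⟨a, ha⟩ : ∃ a : Fin s → AdjoinRoot P, a = fun _ => AdjoinRoot.root P := ⟨_, rfl⟩
  have har : a ^ r = z • (1 : Fin s → AdjoinRoot P) := by
    funext i
    rw [Pi.pow_apply, ha, hroot, Pi.smul_apply, Pi.one_apply, Algebra.algebraMap_eq_smul_one]
  obtain ⟨b⟩ : Nonempty (Basis (Fin (r * s)) F (Fin s → AdjoinRoot P)) :=
    ⟨Module.finBasisOfFinrankEq F _ hrankA⟩
  refine ⟨LinearMap.toMatrixAlgEquiv b (Algebra.lmul F (Fin s → AdjoinRoot P) a), ?_⟩
  rw [← map_pow, ← map_pow, har, map_smul, map_one, map_smul, map_one]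

/-- every element of the subfield `F₀` is an `r`-th power when `r ∤ q₀ - 1` -/
theorem sfr_rth_power_of_mem {F : Type*} [Field F] [Fintype F] (F₀ : Subfield F) (q₀ : ℕ)
    (hF₀ : Nat.card ↥F₀ = q₀) (r : ℕ) [Fact r.Prime] (hr0 : ¬ r ∣ q₀ - 1) (t : F)
    (ht : t ∈ F₀) : ∃ u : F, u ^ r = t := by
  classical
  have hrp : r.Prime := Fact.out
  by_cases ht0 : t = 0
  · exact ⟨0, by rw [ht0, zero_pow hrp.ne_zero]⟩
  let _ : Fintype ↥F₀ := Fintype.ofFinite _
  have hc0 : Fintype.card ↥F₀ = q₀ := by rw [← Nat.card_eq_fintype_card, hF₀]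
  have h1 : t ^ (q₀ - 1) = 1 := by
    have h2 : (⟨t, ht⟩ : ↥F₀) ^ (Fintype.card ↥F₀ - 1) = 1 :=
      FiniteField.pow_card_sub_one_eq_one _ (fun h => ht0 (congrArg Subtype.val h))
    rw [hc0] at h2
    exact congrArg Subtype.val h2
  have hcop : Nat.gcd r (q₀ - 1) = 1 := (Nat.Prime.coprime_iff_not_dvd hrp).2 hr0
  have hbez := Nat.gcd_eq_gcd_ab r (q₀ - 1)
  rw [hcop] at hbez
  refine ⟨t ^ (Nat.gcdA r (q₀ - 1)), ?_⟩
  have h3 : t ^ ((1 : ℕ) : ℤ) = t ^ ((r : ℤ) * Nat.gcdA r (q₀ - 1)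
      + ((q₀ - 1 : ℕ) : ℤ) * Nat.gcdB r (q₀ - 1)) := by rw [hbez]
  rw [zpow_add₀ ht0, zpow_mul' t (r : ℤ), zpow_mul t ((q₀ - 1 : ℕ) : ℤ), zpow_natCast,
    zpow_natCast, zpow_natCast, h1, one_zpow, mul_one, pow_one] at h3
  exact h3.symm

/-! ## PIECE BADB -/
theorem bad_irr {F : Type*} [Field F] [Fintype F] (F₀ : Subfield F) (q₀ : ℕ)
    (hF₀ : Nat.card ↥F₀ = q₀) (r : ℕ) [Fact r.Prime]
    (hr2 : r ≠ 2) (hr : r ∣ Fintype.card F - 1) (hr0 : ¬ r ∣ q₀ - 1) (n : ℕ) (hn : 2 ≤ n)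
    (hv : padicValNat r (Fintype.card F - 1) < padicValNat r n) : IsBad F₀ n r := by
  classical
  have hrp : r.Prime := Fact.out
  obtain ⟨z, hz0, hzpow, hzs⟩ := sfr_exists_nonpower (F := F) r hr
  have hrn : r ∣ n := dvd_of_one_le_padicValNat (by omega)
  obtain ⟨s, rfl⟩ := hrn
  obtain ⟨x, hx⟩ := sfr_exists_root_matrix r hrp.pos z s
  obtain ⟨s', hs', hdet⟩ := det_of_irr r hr2 (r * s) x z hzpow hx
  have hss : s' = s := Nat.eq_of_mul_eq_mul_left hrp.pos hs'.symm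
  subst hss
  have hs0 : s' ≠ 0 := by
    rintro rfl
    rw [mul_zero] at hn
    omega
  have hes : r ^ padicValNat r (Fintype.card F - 1) ∣ s' := by
    have h1 : padicValNat r (r * s') = padicValNat r s' + 1 := by
      rw [padicValNat.mul hrp.ne_zero hs0, padicValNat_self, add_comm]
    rw [padicValNat_dvd_iff_le hs0]
    omega
  have hdet1 : x.det = 1 := by
    rw [hdet]
    exact hzs s' hes
  obtain ⟨X, hX⟩ : ∃ X : Matrix.SpecialLinearGroup (Fin (r * s')) F, X = ⟨x, hdet1⟩ := ⟨_, rfl⟩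
  have hXv : (X : Matrix (Fin (r * s')) (Fin (r * s')) F) = x := by rw [hX]
  have hXr : ((X ^ r : Matrix.SpecialLinearGroup (Fin (r * s')) F) :
      Matrix (Fin (r * s')) (Fin (r * s')) F) = z • (1 : Matrix (Fin (r * s')) (Fin (r * s')) F) := by
    rw [Matrix.SpecialLinearGroup.coe_pow, hXv]
    exact hx
  have hi0 : 0 < r * s' := by omega
  refine ⟨X, ⟨z, hXr⟩, ?_, ?_⟩
  · intro w hw
    rw [hXv] at hw
    have h1 : x ^ r = (w ^ r) • (1 : Matrix (Fin (r * s')) (Fin (r * s')) F) := by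
      rw [hw, _root_.smul_pow, one_pow]
    rw [hx] at h1
    have h2 := congrFun (congrFun h1 ⟨0, hi0⟩) ⟨0, hi0⟩
    simp only [Matrix.smul_apply, Matrix.one_apply_eq, smul_eq_mul, mul_one] at h2
    exact hzpow w h2.symm
  · rintro ⟨P, hP⟩
    rw [subH, Subgroup.mem_comap, Cfsg.Agent.Helper97.SF.mem_subfieldSubgroup_one] at hP
    obtain ⟨c, hc0, hrat⟩ := hP
    have hconj : (P⁻¹ * X * P) ^ r = P⁻¹ * X ^ r * P := by
      have h1 := conj_pow (a := P⁻¹) (b := X) (i := r)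
      rwa [inv_inv] at h1
    have hPP : ((P⁻¹ : Matrix.SpecialLinearGroup (Fin (r * s')) F) :
        Matrix (Fin (r * s')) (Fin (r * s')) F) * (P : Matrix (Fin (r * s')) (Fin (r * s')) F)
        = 1 := by
      rw [← Matrix.SpecialLinearGroup.coe_mul, inv_mul_cancel, Matrix.SpecialLinearGroup.coe_one]
    have h3 : (((P⁻¹ * X * P : Matrix.SpecialLinearGroup (Fin (r * s')) F) :
        Matrix (Fin (r * s')) (Fin (r * s')) F)) ^ r
        = z • (1 : Matrix (Fin (r * s')) (Fin (r * s')) F) := by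
      rw [← Matrix.SpecialLinearGroup.coe_pow, hconj, Matrix.SpecialLinearGroup.coe_mul,
        Matrix.SpecialLinearGroup.coe_mul, hXr, Matrix.mul_smul, Matrix.mul_one, Matrix.smul_mul,
        hPP]
    have h4 := Subring.pow_mem _ hrat r
    rw [Matrix.SpecialLinearGroup.coe_GL_coe_matrix, _root_.smul_pow, h3] at h4
    have h5 := h4 ⟨0, hi0⟩ ⟨0, hi0⟩
    simp only [Matrix.smul_apply, Matrix.one_apply_eq, smul_eq_mul, mul_one] at h5
    obtain ⟨u, hu⟩ := sfr_rth_power_of_mem F₀ q₀ hF₀ r hr0 _ h5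
    apply hzpow (u / c)
    rw [div_pow, hu]
    field_simp

end Cfsg.Agent.Helper60
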