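import Mathlib
import Cfsg.Prelude.Def_GeometricClasses
import Cfsg.Agent.Helper90.SFRDefs
import Cfsg.Agent.Helper97.SFBasic
import Cfsg.Agent.Helper5.SLCard

/-!
# S5965, piece IDX1: the index of the subfield subgroup is prime to `r`
-/

set_option autoImplicit false

namespace Cfsg.Agent.Helper60

open Module Polynomial Cfsg.Agent.Helper90.SFR

/-- one factor of the order formula: `(q₀^k)^n - (q₀^k)^i = (q₀^n - q₀^i) ρ` with `r ∤ ρ` -/
theorem sfr_idx1_term (q₀ k r : ℕ) (hk : k.Prime) [Fact r.Prime] (hrk : r ≠ k)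
    (hkc : ¬ k ∣ orderOf ((q₀ : ℕ) : ZMod r)) (n i : ℕ) (hi : i < n) (hq : 1 ≤ q₀) :
    ∃ ρ, ¬ r ∣ ρ ∧ (q₀ ^ k) ^ n - (q₀ ^ k) ^ i = (q₀ ^ n - q₀ ^ i) * ρ := by
  have hab : q₀ ^ i ≤ q₀ ^ n := Nat.pow_le_pow_right hq (le_of_lt hi)
  refine ⟨∑ t ∈ Finset.range k, (q₀ ^ n) ^ t * (q₀ ^ i) ^ (k - 1 - t), ?_, ?_⟩
  · intro hdvd
    have hrp : r.Prime := Fact.out
    obtain ⟨u, hu⟩ : ∃ u : ZMod r, u = ((q₀ : ℕ) : ZMod r) := ⟨_, rfl⟩
    rw [← hu] at hkc
    have hord : 0 < orderOf u := by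
      rcases Nat.eq_zero_or_pos (orderOf u) with h0 | h0
      · exact absurd (h0 ▸ dvd_zero k) hkc
      · exact h0
    have hu0 : u ≠ 0 := by
      intro h0
      have hne : orderOf u ≠ 0 := by omega
      have h1 := pow_orderOf_eq_one u
      rw [h0] at h1 hne
      rw [zero_pow hne] at h1
      exact zero_ne_one h1
    -- the sum vanishes in `ZMod r`
    have hsum : (∑ t ∈ Finset.range k, (u ^ n) ^ t * (u ^ i) ^ (k - 1 - t) : ZMod r) = 0 := by
      have h1 := (ZMod.natCast_eq_zero_iff _ r).2 hdvd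
      rw [← h1, hu]
      push_cast
      rfl
    have hgeom : (u ^ n) ^ k = (u ^ i) ^ k := by
      have h1 := (Commute.all (u ^ n) (u ^ i)).geom_sum₂_mul k
      rw [hsum, zero_mul] at h1
      exact (sub_eq_zero.1 h1.symm)
    have hni : u ^ n = u ^ i := by
      have h2 : u ^ ((n - i) * k) = 1 := by
        have h3 : (u ^ i) ^ k * u ^ ((n - i) * k) = (u ^ i) ^ k * 1 := by
          have hnat : i * k + (n - i) * k = n * k := by
            have : n = i + (n - i) := by omega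
            calc i * k + (n - i) * k = (i + (n - i)) * k := by ring
              _ = n * k := by rw [← this]
          calc (u ^ i) ^ k * u ^ ((n - i) * k) = u ^ (i * k + (n - i) * k) := by
                rw [← pow_mul, ← pow_add]
            _ = u ^ (n * k) := by rw [hnat]
            _ = (u ^ n) ^ k := by rw [pow_mul]
            _ = (u ^ i) ^ k := hgeom
            _ = (u ^ i) ^ k * 1 := (mul_one _).symm
        exact mul_left_cancel₀ (pow_ne_zero _ (pow_ne_zero _ hu0)) h3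
      have h4 : orderOf u ∣ (n - i) * k := orderOf_dvd_of_pow_eq_one h2
      have hcop : Nat.Coprime (orderOf u) k := by
        rw [Nat.coprime_comm]
        exact (Nat.Prime.coprime_iff_not_dvd hk).2 hkc
      have h5 : orderOf u ∣ n - i := hcop.dvd_of_dvd_mul_right h4
      have h6 : u ^ (n - i) = 1 := orderOf_dvd_iff_pow_eq_one.1 h5
      have : n = i + (n - i) := by omega
      rw [this, pow_add, h6, mul_one]
    rw [hni] at hsum
    have hconst : (∑ t ∈ Finset.range k, (u ^ i) ^ t * (u ^ i) ^ (k - 1 - t) : ZMod r)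
        = (k : ZMod r) * (u ^ i) ^ (k - 1) := by
      rw [Finset.sum_congr rfl (g := fun _ => (u ^ i) ^ (k - 1))]
      · rw [Finset.sum_const, Finset.card_range, nsmul_eq_mul]
      · intro t ht
        rw [← pow_add]
        congr 1
        have := Finset.mem_range.1 ht
        omega
    rw [hconst] at hsum
    rcases mul_eq_zero.1 hsum with h7 | h7
    · rw [ZMod.natCast_eq_zero_iff] at h7
      exact hrk ((Nat.prime_dvd_prime_iff_eq hrp hk).1 h7)
    · exact pow_ne_zero _ (pow_ne_zero _ hu0) h7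
  · rw [mul_comm, geom_sum₂_mul_of_ge hab, ← pow_mul, ← pow_mul, ← pow_mul, ← pow_mul,
      mul_comm k n, mul_comm k i]

/-! ## PIECE IDX1 -/
theorem index_case_one {F : Type*} [Field F] [Fintype F] (p : ℕ) [Fact p.Prime] [CharP F p]
    (F₀ : Subfield F) (q₀ k : ℕ)
    (hk : k.Prime) (hF₀ : Nat.card ↥F₀ = q₀) (hqk : Fintype.card F = q₀ ^ k) (r : ℕ)
    [Fact r.Prime] (hr2 : r ≠ 2) (hrp : r ≠ p) (hrk : r ≠ k)
    (hkc : ¬ k ∣ orderOf ((q₀ : ℕ) : ZMod r)) (n : ℕ) (hn : 1 ≤ n) :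
    ¬ r ∣ (subH F₀ n).index := by
  classical
  let _ : Fintype ↥F₀ := Fintype.ofFinite _
  have hc0 : Fintype.card ↥F₀ = q₀ := by rw [← Nat.card_eq_fintype_card, hF₀]
  have : Nonempty (Fin n) := ⟨⟨0, by omega⟩⟩
  have hrprime : r.Prime := Fact.out
  obtain ⟨H, hH⟩ : ∃ H, H = subH F₀ n := ⟨_, rfl⟩
  rw [← hH]
  obtain ⟨φ, hφ⟩ : ∃ φ : Matrix.SpecialLinearGroup (Fin n) ↥F₀ →*
      Matrix.SpecialLinearGroup (Fin n) F, φ = Matrix.SpecialLinearGroup.map F₀.subtype :=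
    ⟨_, rfl⟩
  have hφv : ∀ (g : Matrix.SpecialLinearGroup (Fin n) ↥F₀) (i j : Fin n),
      (φ g).val i j = ((g.val i j : ↥F₀) : F) := by
    intro g i j
    rw [hφ]
    rfl
  have hinj : Function.Injective φ := by
    intro g h hgh
    apply Subtype.ext
    ext i j
    have h1 := congrArg (fun y : Matrix.SpecialLinearGroup (Fin n) F => y.val i j) hgh
    simp only [hφv] at h1
    exact h1
  have hrange : φ.range ≤ H := by
    rintro _ ⟨g, rfl⟩
    rw [hH, subH, Subgroup.mem_comap, Cfsg.Agent.Helper97.SF.mem_subfieldSubgroup_one]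
    refine ⟨1, one_ne_zero, ?_⟩
    rw [one_smul]
    intro i j
    simp only [Matrix.SpecialLinearGroup.coe_GL_coe_matrix]
    rw [hφv]
    exact SetLike.coe_mem _
  have hdvd : Nat.card (Matrix.SpecialLinearGroup (Fin n) ↥F₀) ∣ Nat.card H := by
    have h1 := Subgroup.card_dvd_of_le hrange
    rwa [← Nat.card_congr (MonoidHom.ofInjective hinj).toEquiv] at h1
  obtain ⟨c', hc'⟩ := hdvd
  have hidx := Subgroup.card_mul_index H
  have hA := Cfsg.Agent.Helper5.card_SL_mul (F := F) (Fin n)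
  have hA₀ := Cfsg.Agent.Helper5.card_SL_mul (F := ↥F₀) (Fin n)
  rw [Matrix.card_GL_field] at hA hA₀
  rw [hqk] at hA
  rw [hc0] at hA₀
  have hq₀1 : 1 < q₀ := by
    have h1 : 1 < Fintype.card ↥F₀ := Fintype.one_lt_card
    omega
  obtain ⟨S₁, hS₁e⟩ : q₀ - 1 ∣ q₀ ^ k - 1 := Nat.sub_one_dvd_pow_sub_one q₀ k
  have hterm : ∀ i : Fin n, ∃ ρ, ¬ r ∣ ρ ∧
      (q₀ ^ k) ^ n - (q₀ ^ k) ^ (i : ℕ) = (q₀ ^ n - q₀ ^ (i : ℕ)) * ρ := fun i =>
    sfr_idx1_term q₀ k r hk hrk hkc n i i.isLt (le_of_lt hq₀1)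
  choose ρ hρnd hρe using hterm
  have hprod : ∏ i : Fin n, ((q₀ ^ k) ^ n - (q₀ ^ k) ^ (i : ℕ)) =
      (∏ i : Fin n, (q₀ ^ n - q₀ ^ (i : ℕ))) * ∏ i : Fin n, ρ i := by
    rw [← Finset.prod_mul_distrib]
    exact Finset.prod_congr rfl (fun i _ => hρe i)
  have hRnd : ¬ r ∣ ∏ i : Fin n, ρ i := by
    intro h1
    obtain ⟨i, -, hi⟩ := (hrprime.prime.dvd_finsetProd_iff _).1 h1
    exact hρnd i hi
  obtain ⟨R, hR⟩ : ∃ R, R = ∏ i : Fin n, ρ i := ⟨_, rfl⟩
  rw [← hR] at hprod hRnd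
  rw [hprod, ← hA₀, hS₁e] at hA
  have hA₀pos : 0 < Nat.card (Matrix.SpecialLinearGroup (Fin n) ↥F₀) := Nat.card_pos
  have hq₀2 : 0 < q₀ - 1 := by omega
  intro h2
  obtain ⟨d, hd⟩ := h2
  rw [← hidx, hc', hd] at hA
  have h5 : Nat.card (Matrix.SpecialLinearGroup (Fin n) ↥F₀) * (q₀ - 1) * (r * (c' * d * S₁)) =
      Nat.card (Matrix.SpecialLinearGroup (Fin n) ↥F₀) * (q₀ - 1) * R := by
    rw [← hA]
    ring
  have h6 := Nat.eq_of_mul_eq_mul_left (Nat.mul_pos hA₀pos hq₀2) h5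
  exact hRnd ⟨_, h6.symm⟩

end Cfsg.Agent.Helper60
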