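/-
helper60: generic characteristic-2 core for the stages `r = p = 2` of CALL S74 (row S5974) and
CALL S90 (row S5990).  `T` an isometry of the nondegenerate quadratic form `Q` with `T ^ 2 = 1`,
`2 = 0` in `F`.  Every `T`-invariant nondegenerate subspace `U ≠ ⊥` contains a `T`-invariant
nondegenerate plane or a `T`-invariant 4-space of plus type (`t2_block`); among three planes two
have the same type, so invariant plus-type subspaces of every dimension `4 k` exist (`t2_core`).
`t2_hyp`: ambient plus type, invariant hyperbolic `m`-spaces.  `t2_ell`: ambient minus type,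
invariant elliptic `m`-spaces.
-/
import Mathlib
import Cfsg.Agent.Helper96.OHDefs
import Cfsg.Agent.Helper96.OHAll
import Cfsg.Agent.Helper33.OType
import Cfsg.Agent.Helper31.OHOPERP

set_option autoImplicit false
set_option linter.unusedSectionVars false
set_option linter.unusedVariables false

namespace Cfsg.Agent.Helper60.T2

open Module Cfsg Cfsg.Geo
open Cfsg.Agent.Helper96.OH

variable {ι : Type} [Fintype ι] [DecidableEq ι] {F : Type*} [Field F] (Q : (ι → F) → F)

theorem pol_l (hQ : IsNondegenerateQuadraticForm Q) (α β : F) (v w y : ι → F) :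
    QuadraticMap.polar Q (α • v + β • w) y
      = α * QuadraticMap.polar Q v y + β * QuadraticMap.polar Q w y := by
  simp only [← pB_apply Q hQ, map_add, map_smul, LinearMap.add_apply, LinearMap.smul_apply,
    smul_eq_mul]

theorem pol_r (hQ : IsNondegenerateQuadraticForm Q) (α β : F) (v w y : ι → F) :
    QuadraticMap.polar Q y (α • v + β • w)
      = α * QuadraticMap.polar Q y v + β * QuadraticMap.polar Q y w := by
  rw [QuadraticMap.polar_comm, pol_l Q hQ, QuadraticMap.polar_comm _ v,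
    QuadraticMap.polar_comm _ w]

theorem pol_add_l (hQ : IsNondegenerateQuadraticForm Q) (v w y : ι → F) :
    QuadraticMap.polar Q (v + w) y = QuadraticMap.polar Q v y + QuadraticMap.polar Q w y := by
  have h := pol_l Q hQ 1 1 v w y
  rwa [one_smul, one_smul, one_mul, one_mul] at h

theorem pol_add_r (hQ : IsNondegenerateQuadraticForm Q) (v w y : ι → F) :
    QuadraticMap.polar Q y (v + w) = QuadraticMap.polar Q y v + QuadraticMap.polar Q y w := by
  have h := pol_r Q hQ 1 1 v w y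
  rwa [one_smul, one_smul, one_mul, one_mul] at h

theorem pol_self (hQ : IsNondegenerateQuadraticForm Q) (h2 : (2 : F) = 0) (v : ι → F) :
    QuadraticMap.polar Q v v = 0 := by
  rw [← pB_apply Q hQ, pB_self, h2, zero_mul]

theorem pol_zero_l (hQ : IsNondegenerateQuadraticForm Q) (y : ι → F) :
    QuadraticMap.polar Q 0 y = 0 := by
  rw [← pB_apply Q hQ, map_zero, LinearMap.zero_apply]

theorem li_pair (hQ : IsNondegenerateQuadraticForm Q) (x y v w : ι → F)
    (h1 : QuadraticMap.polar Q y w = 0) (h2 : QuadraticMap.polar Q x w ≠ 0)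
    (h3 : QuadraticMap.polar Q y v ≠ 0) : LinearIndependent F ![x, y] := by
  rw [LinearIndependent.pair_iff]
  intro s t hst
  have e1 : QuadraticMap.polar Q (s • x + t • y) w = 0 := by rw [hst, pol_zero_l Q hQ]
  rw [pol_l Q hQ, h1, mul_zero, add_zero] at e1
  have hs : s = 0 := (mul_eq_zero.mp e1).resolve_right h2
  have e2 : QuadraticMap.polar Q (s • x + t • y) v = 0 := by rw [hst, pol_zero_l Q hQ]
  rw [pol_l Q hQ, hs, zero_mul, zero_add] at e2
  exact ⟨hs, (mul_eq_zero.mp e2).resolve_right h3⟩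

theorem finrank_pair (x y : ι → F) (h : LinearIndependent F ![x, y]) :
    finrank F (Submodule.span F ({x, y} : Set (ι → F))) = 2 := by
  have h1 := finrank_span_eq_card h
  rw [Matrix.range_cons_cons_empty] at h1
  rw [h1]
  simp

theorem plane (hQ : IsNondegenerateQuadraticForm Q) (h2 : (2 : F) = 0) (v w : ι → F)
    (hc : QuadraticMap.polar Q v w ≠ 0) :
    finrank F (Submodule.span F ({v, w} : Set (ι → F))) = 2 ∧
      ONd Q (Submodule.span F ({v, w} : Set (ι → F))) := by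
  have hvv := pol_self Q hQ h2 v
  have hww := pol_self Q hQ h2 w
  have hwv : QuadraticMap.polar Q w v ≠ 0 := by rwa [QuadraticMap.polar_comm]
  refine ⟨finrank_pair v w (li_pair Q hQ v w v w hww hc hwv), ?_⟩
  intro x hx hx0
  obtain ⟨α, β, rfl⟩ := Submodule.mem_span_pair.mp hx
  by_cases hα : α = 0
  · have hβ : β ≠ 0 := by
      rintro rfl
      exact hx0 (by rw [hα, zero_smul, zero_smul, add_zero])
    have h : QuadraticMap.polar Q (α • v + β • w) v ≠ 0 := by
      rw [pol_l Q hQ, hvv, mul_zero, zero_add]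
      exact mul_ne_zero hβ hwv
    exact ⟨⟨v, Submodule.subset_span (Set.mem_insert _ _), by rwa [QuadraticMap.polar_comm]⟩,
      ⟨v, Submodule.subset_span (Set.mem_insert _ _), h⟩⟩
  · have h : QuadraticMap.polar Q (α • v + β • w) w ≠ 0 := by
      rw [pol_l Q hQ, hww, mul_zero, add_zero]
      exact mul_ne_zero hα hc
    exact ⟨⟨w, Submodule.subset_span (Set.mem_insert_of_mem _ rfl),
        by rwa [QuadraticMap.polar_comm]⟩,
      ⟨w, Submodule.subset_span (Set.mem_insert_of_mem _ rfl), h⟩⟩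

theorem orth_pair (hQ : IsNondegenerateQuadraticForm Q) (a b c d : ι → F)
    (h1 : QuadraticMap.polar Q a c = 0) (h2 : QuadraticMap.polar Q a d = 0)
    (h3 : QuadraticMap.polar Q b c = 0) (h4 : QuadraticMap.polar Q b d = 0) :
    OOrth Q (Submodule.span F ({a, b} : Set (ι → F))) (Submodule.span F ({c, d} : Set (ι → F))) := by
  intro x hx y hy
  obtain ⟨α, β, rfl⟩ := Submodule.mem_span_pair.mp hx
  obtain ⟨γ, δ, rfl⟩ := Submodule.mem_span_pair.mp hy
  rw [pol_l Q hQ, pol_r Q hQ, pol_r Q hQ, h1, h2, h3, h4]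
  ring

theorem pair_le (a b : ι → F) (U : Submodule F (ι → F)) (ha : a ∈ U) (hb : b ∈ U) :
    Submodule.span F ({a, b} : Set (ι → F)) ≤ U := by
  rw [Submodule.span_le]
  intro x hx
  rcases hx with rfl | hx
  · exact ha
  · rw [Set.mem_singleton_iff.mp hx]
    exact hb

theorem map_pair_le (T : Module.End F (ι → F)) (a b : ι → F) (B : Submodule F (ι → F))
    (ha : T a ∈ B) (hb : T b ∈ B) :
    (Submodule.span F ({a, b} : Set (ι → F))).map T ≤ B := by
  rw [Submodule.map_span, Submodule.span_le]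
  rintro _ ⟨x, hx, rfl⟩
  rcases hx with rfl | hx
  · exact ha
  · rw [Set.mem_singleton_iff.mp hx]
    exact hb

/-- BLK: a `T`-invariant nondegenerate `U ≠ ⊥` contains a `T`-invariant nondegenerate plane or a
`T`-invariant nondegenerate 4-space of plus type. -/
theorem t2_block (hQ : IsNondegenerateQuadraticForm Q) (h2 : (2 : F) = 0)
    (T : Module.End F (ι → F)) (hT : OPres Q T) (hTT : T ^ 2 = 1)
    (U : Submodule F (ι → F)) (hUT : U.map T ≤ U) (hU : ONd Q U) (hU0 : U ≠ ⊥) :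
    ∃ B : Submodule F (ι → F), B ≤ U ∧ B.map T ≤ B ∧ ONd Q B ∧
      (finrank F B = 2 ∨ (finrank F B = 4 ∧ OPl Q B)) := by
  have hTTv : ∀ v, T (T v) = v := by
    intro v
    have h := congrArg (fun f : Module.End F (ι → F) => f v) hTT
    simpa [pow_two, Module.End.mul_apply] using h
  have hTU : ∀ v ∈ U, T v ∈ U := fun v hv => hUT (Submodule.mem_map_of_mem hv)
  have hpT : ∀ u v, QuadraticMap.polar Q (T u) (T v) = QuadraticMap.polar Q u v := by
    intro u v
    unfold QuadraticMap.polar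
    rw [← map_add, hT, hT, hT]
  have hneg : ∀ v : ι → F, v + v = 0 := by
    intro v
    rw [← two_smul F v, h2, zero_smul]
  have hch : ∀ x y : F, x + y + (y + x) = 0 := by
    intro x y
    have e : x + y + (y + x) = 2 * (x + y) := by ring
    rw [e, h2, zero_mul]
  by_cases ha : ∃ v ∈ U, QuadraticMap.polar Q v (T v) ≠ 0
  · obtain ⟨v, hv, hc⟩ := ha
    obtain ⟨hdim, hnd⟩ := plane Q hQ h2 v (T v) hc
    refine ⟨Submodule.span F {v, T v}, pair_le v (T v) U hv (hTU v hv), ?_, hnd, Or.inl hdim⟩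
    apply map_pair_le
    · exact Submodule.subset_span (Set.mem_insert_of_mem _ rfl)
    · rw [hTTv]
      exact Submodule.subset_span (Set.mem_insert _ _)
  · push Not at ha
    by_cases hb : ∀ v ∈ U, T v = v
    · obtain ⟨v, hv, hv0⟩ := (Submodule.ne_bot_iff U).mp hU0
      obtain ⟨-, w, hw, hc⟩ := hU v hv hv0
      obtain ⟨hdim, hnd⟩ := plane Q hQ h2 v w hc
      refine ⟨Submodule.span F {v, w}, pair_le v w U hv hw, ?_, hnd, Or.inl hdim⟩
      apply map_pair_le
      · rw [hb v hv]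
        exact Submodule.subset_span (Set.mem_insert _ _)
      · rw [hb w hw]
        exact Submodule.subset_span (Set.mem_insert_of_mem _ rfl)
    · push Not at hb
      obtain ⟨v, hv, hTv⟩ := hb
      have hu1U : v + T v ∈ U := U.add_mem hv (hTU v hv)
      have hu10 : v + T v ≠ 0 := by
        intro h
        apply hTv
        have h1 : T v = -v := by
          rw [eq_neg_iff_add_eq_zero, add_comm]
          exact h
        rw [h1]
        exact neg_eq_of_add_eq_zero_left (hneg v)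
      obtain ⟨-, w, hw, hs⟩ := hU (v + T v) hu1U hu10
      have hu2U : w + T w ∈ U := U.add_mem hw (hTU w hw)
      have f1 : QuadraticMap.polar Q v (T v) = 0 := ha v hv
      have f2 : QuadraticMap.polar Q w (T w) = 0 := ha w hw
      have f3 : QuadraticMap.polar Q (T v) w = QuadraticMap.polar Q v (T w) := by
        rw [← hpT (T v) w, hTTv]
      -- s = polar u1 w
      have g1 : QuadraticMap.polar Q v (w + T w) = QuadraticMap.polar Q (v + T v) w := by
        rw [pol_add_r Q hQ, pol_add_l Q hQ, f3]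
      have g2 : QuadraticMap.polar Q v (v + T v) = 0 := by
        rw [pol_add_r Q hQ, pol_self Q hQ h2, f1, add_zero]
      have g3 : QuadraticMap.polar Q (w + T w) (v + T v) = 0 := by
        rw [pol_add_l Q hQ, pol_add_r Q hQ, pol_add_r Q hQ, hpT,
          QuadraticMap.polar_comm Q w (T v), f3, QuadraticMap.polar_comm Q v (T w)]
        exact hch _ _
      have g4 : QuadraticMap.polar Q (w + T w) w = 0 := by
        rw [pol_add_l Q hQ, pol_self Q hQ h2, QuadraticMap.polar_comm Q (T w) w, f2, add_zero]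
      have g5 : QuadraticMap.polar Q (w + T w) (w + T w) = 0 := pol_self Q hQ h2 _
      have hs1 : QuadraticMap.polar Q v (w + T w) ≠ 0 := by rw [g1]; exact hs
      -- the corrected vector w'
      have k1 : QuadraticMap.polar Q v
          ((1 : F) • w + (QuadraticMap.polar Q v w / QuadraticMap.polar Q (v + T v) w) • (w + T w))
            = 0 := by
        rw [pol_r Q hQ, g1, one_mul, div_mul_cancel₀ _ hs, ← two_mul, h2, zero_mul]
      have k2 : QuadraticMap.polar Q (w + T w)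
          ((1 : F) • w + (QuadraticMap.polar Q v w / QuadraticMap.polar Q (v + T v) w) • (w + T w))
            = 0 := by
        rw [pol_r Q hQ, g4, g5, mul_zero, mul_zero, add_zero]
      have k3 : QuadraticMap.polar Q
          ((1 : F) • w + (QuadraticMap.polar Q v w / QuadraticMap.polar Q (v + T v) w) • (w + T w))
          (v + T v) ≠ 0 := by
        rw [pol_l Q hQ, g3, mul_zero, add_zero, one_mul, QuadraticMap.polar_comm]
        exact hs
      obtain ⟨d1, n1⟩ := plane Q hQ h2 v (w + T w) hs1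
      obtain ⟨d2, n2⟩ := plane Q hQ h2 _ (v + T v) k3
      have horth := orth_pair Q hQ v (w + T w) _ (v + T v) k1 g2 k2 g3
      set w' : ι → F :=
        (1 : F) • w + (QuadraticMap.polar Q v w / QuadraticMap.polar Q (v + T v) w) • (w + T w)
        with hw'
      set c : F := QuadraticMap.polar Q v w / QuadraticMap.polar Q (v + T v) w with hc
      set B : Submodule F (ι → F) :=
        Submodule.span F {v, w + T w} ⊔ Submodule.span F {w', v + T v} with hB
      have hvB : v ∈ B := le_sup_left (α := Submodule F (ι → F))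
        (Submodule.subset_span (Set.mem_insert _ _))
      have hu2B : w + T w ∈ B := le_sup_left (α := Submodule F (ι → F))
        (Submodule.subset_span (Set.mem_insert_of_mem _ rfl))
      have hw'B : w' ∈ B := le_sup_right (α := Submodule F (ι → F))
        (Submodule.subset_span (Set.mem_insert _ _))
      have hu1B : v + T v ∈ B := le_sup_right (α := Submodule F (ι → F))
        (Submodule.subset_span (Set.mem_insert_of_mem _ rfl))
      have hwB : w ∈ B := by
        have e : w = w' - c • (w + T w) := by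
          rw [hw', one_smul]
          abel
        rw [e]
        exact B.sub_mem hw'B (B.smul_mem c hu2B)
      have hTvB : T v ∈ B := by
        have e : T v = (v + T v) - v := by abel
        rw [e]
        exact B.sub_mem hu1B hvB
      have hTwB : T w ∈ B := by
        have e : T w = (w + T w) - w := by abel
        rw [e]
        exact B.sub_mem hu2B hwB
      have hTu1 : T (v + T v) = v + T v := by rw [map_add, hTTv, add_comm]
      have hTu2 : T (w + T w) = w + T w := by rw [map_add, hTTv, add_comm]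
      have hw'U : w' ∈ U := by
        rw [hw', one_smul]
        exact U.add_mem hw (U.smul_mem c hu2U)
      have hTw'B : T w' ∈ B := by
        rw [hw', map_add, map_smul, map_smul, hTu2]
        exact B.add_mem (B.smul_mem 1 hTwB) (B.smul_mem c hu2B)
      refine ⟨B, sup_le (pair_le v (w + T w) U hv hu2U) (pair_le w' (v + T v) U hw'U hu1U), ?_,
        Cfsg.Agent.Helper33.OType.nondeg_sup Q hQ _ _ n1 n2 horth, Or.inr ⟨?_, ?_⟩⟩
      · rw [hB, Submodule.map_sup]
        refine sup_le (map_pair_le T v (w + T w) B hTvB ?_) (map_pair_le T w' (v + T v) B hTw'B ?_)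
        · rw [hTu2]; exact hu2B
        · rw [hTu1]; exact hu1B
      · rw [hB, Cfsg.Agent.Helper33.OType.finrank_sup_of_orth Q _ _ n1 horth, d1, d2]
      · refine ⟨Submodule.span F {v + T v, w + T w}, pair_le _ _ B hu1B hu2B, ?_, ?_⟩
        · intro x hx
          obtain ⟨α, β, rfl⟩ := Submodule.mem_span_pair.mp hx
          have q1 : Q (v + T v) = 0 := by
            rw [q_add Q, hT, f1, add_zero, ← two_mul, h2, zero_mul]
          have q2 : Q (w + T w) = 0 := by
            rw [q_add Q, hT, f2, add_zero, ← two_mul, h2, zero_mul]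
          have p12 : QuadraticMap.polar Q (α • (v + T v)) (β • (w + T w)) = 0 := by
            have e := pol_l Q hQ α 0 (v + T v) (v + T v) (β • (w + T w))
            rw [zero_smul, add_zero, zero_mul, add_zero] at e
            have e' := pol_r Q hQ β 0 (w + T w) (w + T w) (v + T v)
            rw [zero_smul, add_zero, zero_mul, add_zero] at e'
            rw [e, e', QuadraticMap.polar_comm, g3, mul_zero, mul_zero]
          rw [q_add Q, hQ.smul, hQ.smul, q1, q2, p12, mul_zero, mul_zero, add_zero, add_zero]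
        · have hli := li_pair Q hQ (v + T v) (w + T w) v w g4 hs
            (by rw [QuadraticMap.polar_comm]; exact hs1)
          rw [finrank_pair _ _ hli, hB,
            Cfsg.Agent.Helper33.OType.finrank_sup_of_orth Q _ _ n1 horth, d1, d2]

variable [Fintype F]

/-- the sum of two orthogonal invariant nondegenerate planes of the same type. -/
theorem two_planes (hQ : IsNondegenerateQuadraticForm Q) (T : Module.End F (ι → F))
    (U B₁ B₂ : Submodule F (ι → F)) (h1U : B₁ ≤ U) (h2U : B₂ ≤ U)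
    (h1T : B₁.map T ≤ B₁) (h2T : B₂.map T ≤ B₂) (h1 : ONd Q B₁) (h2 : ONd Q B₂)
    (ho : OOrth Q B₁ B₂) (d1 : finrank F B₁ = 2) (d2 : finrank F B₂ = 2)
    (hty : OPl Q B₁ ↔ OPl Q B₂) :
    ∃ B : Submodule F (ι → F), B ≤ U ∧ B.map T ≤ B ∧ ONd Q B ∧ OPl Q B ∧ finrank F B = 4 := by
  refine ⟨B₁ ⊔ B₂, sup_le h1U h2U, ?_,
    Cfsg.Agent.Helper33.OType.nondeg_sup Q hQ B₁ B₂ h1 h2 ho, ?_, ?_⟩
  · rw [Submodule.map_sup]
    exact sup_le (h1T.trans le_sup_left) (h2T.trans le_sup_right)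
  · exact (Cfsg.Agent.Helper33.o_type_mul Q hQ B₁ B₂ h1 h2 ho (by rw [d1]; exact ⟨1, rfl⟩)
      (by rw [d2]; exact ⟨1, rfl⟩)).mpr hty
  · rw [Cfsg.Agent.Helper33.OType.finrank_sup_of_orth Q B₁ B₂ h1 ho, d1, d2]

/-- FOUR: an invariant nondegenerate `U` of dimension `≥ 6`, or of plus type and dimension `≥ 4`,
contains an invariant nondegenerate 4-space of plus type. -/
theorem t2_four (hQ : IsNondegenerateQuadraticForm Q) (h2 : (2 : F) = 0)
    (T : Module.End F (ι → F)) (hT : OPres Q T) (hTT : T ^ 2 = 1)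
    (U : Submodule F (ι → F)) (hUT : U.map T ≤ U) (hU : ONd Q U)
    (h : 6 ≤ finrank F U ∨ (OPl Q U ∧ 4 ≤ finrank F U)) :
    ∃ B : Submodule F (ι → F), B ≤ U ∧ B.map T ≤ B ∧ ONd Q B ∧ OPl Q B ∧ finrank F B = 4 := by
  by_cases h4 : finrank F U = 4
  · rcases h with h | ⟨hp, -⟩
    · omega
    · exact ⟨U, le_rfl, hUT, hU, hp, h4⟩
  · have hev : Even (finrank F U) := Cfsg.Agent.Helper96.OHAll.oall_even_char2 Q hQ h2 U hU
    have h6 : 6 ≤ finrank F U := by
      obtain ⟨j, hj⟩ := hev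
      rcases h with h | ⟨-, h⟩
      · exact h
      · omega
    have hU0 : U ≠ ⊥ := by
      intro h0
      rw [h0, finrank_bot] at h6
      omega
    obtain ⟨B₁, hB₁U, hB₁T, hB₁, hB₁d⟩ := t2_block Q hQ h2 T hT hTT U hUT hU hU0
    rcases hB₁d with d1 | ⟨d1, p1⟩
    swap
    · exact ⟨B₁, hB₁U, hB₁T, hB₁, p1, d1⟩
    obtain ⟨P, hPU, hPT, hP, -, -, ho1, hdimP⟩ :=
      Cfsg.Agent.Helper31.OH5992.o_perp Q hQ T hT 2 (by norm_num) hTT U B₁ hU hB₁ hB₁U hUT hB₁T
    have hP0 : P ≠ ⊥ := by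
      intro h0
      rw [h0, finrank_bot] at hdimP
      omega
    obtain ⟨B₂, hB₂P, hB₂T, hB₂, hB₂d⟩ := t2_block Q hQ h2 T hT hTT P hPT hP hP0
    rcases hB₂d with d2 | ⟨d2, p2⟩
    swap
    · exact ⟨B₂, hB₂P.trans hPU, hB₂T, hB₂, p2, d2⟩
    have ho12 : OOrth Q B₁ B₂ := fun u hu v hv => ho1 u hu v (hB₂P hv)
    by_cases hty : (OPl Q B₁ ↔ OPl Q B₂)
    · exact two_planes Q hQ T U B₁ B₂ hB₁U (hB₂P.trans hPU) hB₁T hB₂T hB₁ hB₂ ho12 d1 d2 hty
    · obtain ⟨P', hP'P, hP'T, hP', -, -, ho2, hdimP'⟩ :=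
        Cfsg.Agent.Helper31.OH5992.o_perp Q hQ T hT 2 (by norm_num) hTT P B₂ hP hB₂ hB₂P hPT hB₂T
      have hP'0 : P' ≠ ⊥ := by
        intro h0
        rw [h0, finrank_bot] at hdimP'
        omega
      obtain ⟨B₃, hB₃P', hB₃T, hB₃, hB₃d⟩ := t2_block Q hQ h2 T hT hTT P' hP'T hP' hP'0
      rcases hB₃d with d3 | ⟨d3, p3⟩
      swap
      · exact ⟨B₃, (hB₃P'.trans hP'P).trans hPU, hB₃T, hB₃, p3, d3⟩
      have ho13 : OOrth Q B₁ B₃ := fun u hu v hv => ho1 u hu v (hP'P (hB₃P' hv))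
      have ho23 : OOrth Q B₂ B₃ := fun u hu v hv => ho2 u hu v (hB₃P' hv)
      by_cases h13 : (OPl Q B₁ ↔ OPl Q B₃)
      · exact two_planes Q hQ T U B₁ B₃ hB₁U ((hB₃P'.trans hP'P).trans hPU) hB₁T hB₃T hB₁ hB₃
          ho13 d1 d3 h13
      · have h23 : (OPl Q B₂ ↔ OPl Q B₃) := by
          by_cases a1 : OPl Q B₁ <;> by_cases a2 : OPl Q B₂ <;> by_cases a3 : OPl Q B₃ <;>
            simp_all
        exact two_planes Q hQ T U B₂ B₃ (hB₂P.trans hPU) ((hB₃P'.trans hP'P).trans hPU) hB₂T hB₃T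
          hB₂ hB₃ ho23 d2 d3 h23

/-- CORE: invariant plus-type subspaces of dimension `4 k`. -/
theorem t2_core (hQ : IsNondegenerateQuadraticForm Q) (h2 : (2 : F) = 0)
    (T : Module.End F (ι → F)) (hT : OPres Q T) (hTT : T ^ 2 = 1)
    (U : Submodule F (ι → F)) (hUT : U.map T ≤ U) (hU : ONd Q U) :
    ∀ k : ℕ, (4 * k + 2 ≤ finrank F U ∨ (OPl Q U ∧ 4 * k ≤ finrank F U)) →
      ∃ W : Submodule F (ι → F), W ≤ U ∧ W.map T ≤ W ∧ ONd Q W ∧ OPl Q W ∧
        finrank F W = 4 * k := by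
  intro k
  induction k with
  | zero =>
    intro _
    refine ⟨⊥, bot_le, ?_, ?_, Cfsg.Agent.Helper33.o_plus_bot Q hQ, by simp⟩
    · rw [Submodule.map_bot]
    · intro w hw hw0
      exact absurd ((Submodule.mem_bot F).mp hw) hw0
  | succ k ih =>
    intro hk
    have hk' : 4 * k + 2 ≤ finrank F U ∨ (OPl Q U ∧ 4 * k ≤ finrank F U) := by
      rcases hk with h | ⟨hp, h⟩
      · left; omega
      · right; exact ⟨hp, by omega⟩
    obtain ⟨W, hWU, hWT, hW, hWp, hWd⟩ := ih hk'
    obtain ⟨P, hPU, hPT, hP, -, hsup, ho, hdimP⟩ :=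
      Cfsg.Agent.Helper31.OH5992.o_perp Q hQ T hT 2 (by norm_num) hTT U W hU hW hWU hUT hWT
    have hevP : Even (finrank F P) := Cfsg.Agent.Helper96.OHAll.oall_even_char2 Q hQ h2 P hP
    have hevW : Even (finrank F W) := by
      rw [hWd]
      exact ⟨2 * k, by ring⟩
    have hmul := Cfsg.Agent.Helper33.o_type_mul Q hQ W P hW hP ho hevW hevP
    rw [hsup] at hmul
    have hP4 : 6 ≤ finrank F P ∨ (OPl Q P ∧ 4 ≤ finrank F P) := by
      rcases hk with h | ⟨hp, h⟩
      · left; omega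
      · right; exact ⟨(hmul.mp hp).mp hWp, by omega⟩
    obtain ⟨B, hBP, hBT, hB, hBp, hBd⟩ := t2_four Q hQ h2 T hT hTT P hPT hP hP4
    have hoWB : OOrth Q W B := fun u hu v hv => ho u hu v (hBP hv)
    refine ⟨W ⊔ B, sup_le hWU (hBP.trans hPU), ?_,
      Cfsg.Agent.Helper33.OType.nondeg_sup Q hQ W B hW hB hoWB, ?_, ?_⟩
    · rw [Submodule.map_sup]
      exact sup_le (hWT.trans le_sup_left) (hBT.trans le_sup_right)
    · exact (Cfsg.Agent.Helper33.o_type_mul Q hQ W B hW hB hoWB hevW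
        (by rw [hBd]; exact ⟨2, rfl⟩)).mpr (iff_of_true hWp hBp)
    · rw [Cfsg.Agent.Helper33.OType.finrank_sup_of_orth Q W B hW hoWB, hWd, hBd]
      ring

/-- PLANE: an invariant nondegenerate subspace that is not of plus type contains an invariant
nondegenerate plane. -/
theorem t2_plane (hQ : IsNondegenerateQuadraticForm Q) (h2 : (2 : F) = 0)
    (T : Module.End F (ι → F)) (hT : OPres Q T) (hTT : T ^ 2 = 1) :
    ∀ (n : ℕ) (U : Submodule F (ι → F)), finrank F U = n → U.map T ≤ U → ONd Q U → ¬ OPl Q U →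
      ∃ B : Submodule F (ι → F), B ≤ U ∧ B.map T ≤ B ∧ ONd Q B ∧ finrank F B = 2 := by
  intro n
  induction n using Nat.strong_induction_on with
  | _ n ih =>
    intro U hn hUT hU hUp
    have hU0 : U ≠ ⊥ := by
      rintro rfl
      exact hUp (Cfsg.Agent.Helper33.o_plus_bot Q hQ)
    obtain ⟨B, hBU, hBT, hB, hBd⟩ := t2_block Q hQ h2 T hT hTT U hUT hU hU0
    rcases hBd with d | ⟨d, p⟩
    · exact ⟨B, hBU, hBT, hB, d⟩
    · obtain ⟨P, hPU, hPT, hP, -, hsup, ho, hdimP⟩ :=
        Cfsg.Agent.Helper31.OH5992.o_perp Q hQ T hT 2 (by norm_num) hTT U B hU hB hBU hUT hBT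
      have hmul := Cfsg.Agent.Helper33.o_type_mul Q hQ B P hB hP ho (by rw [d]; exact ⟨2, rfl⟩)
        (Cfsg.Agent.Helper96.OHAll.oall_even_char2 Q hQ h2 P hP)
      rw [hsup] at hmul
      have hPp : ¬ OPl Q P := fun hp => hUp (hmul.mpr (iff_of_true p hp))
      obtain ⟨B', hB'P, hB'T, hB', d'⟩ := ih (finrank F P) (by omega) P rfl hPT hP hPp
      exact ⟨B', hB'P.trans hPU, hB'T, hB', d'⟩

/-- ambient plus type: invariant hyperbolic `m`-spaces. -/
theorem t2_hyp (hQ : IsNondegenerateQuadraticForm Q) (h2 : (2 : F) = 0)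
    (T : Module.End F (ι → F)) (hT : ∀ v, Q (T v) = Q v) (hTT : T ^ 2 = 1)
    (hplus : IsPlusTypeOn Q ⊤) (m : ℕ) (hm : m ≤ Module.finrank F (ι → F))
    (hcond : 4 ∣ m ∨ 4 ∣ (Module.finrank F (ι → F) - m)) :
    ∃ W : Submodule F (ι → F), (Module.finrank F ↥W = m ∧
      IsNondegenerateOn (QuadraticMap.polar Q) W ∧ IsPlusTypeOn Q W) ∧ W.map T ≤ W := by
  have htop : ONd Q ⊤ := ond_top Q hQ
  have hTtop : (⊤ : Submodule F (ι → F)).map T ≤ ⊤ := le_top
  have hft : finrank F (⊤ : Submodule F (ι → F)) = finrank F (ι → F) := finrank_top F _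
  rcases hcond with ⟨k, hk⟩ | ⟨k, hk⟩
  · obtain ⟨W, -, hWT, hW, hWp, hWd⟩ := t2_core Q hQ h2 T hT hTT ⊤ hTtop htop k
      (Or.inr ⟨hplus, by rw [hft]; omega⟩)
    exact ⟨W, ⟨by rw [hWd, hk], hW, hWp⟩, hWT⟩
  · obtain ⟨W', -, hW'T, hW', hW'p, hW'd⟩ := t2_core Q hQ h2 T hT hTT ⊤ hTtop htop k
      (Or.inr ⟨hplus, by rw [hft]; omega⟩)
    obtain ⟨P, -, hPT, hP, -, hsup, ho, hdimP⟩ :=
      Cfsg.Agent.Helper31.OH5992.o_perp Q hQ T hT 2 (by norm_num) hTT ⊤ W' htop hW' le_top
        hTtop hW'T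
    have hmul := Cfsg.Agent.Helper33.o_type_mul Q hQ W' P hW' hP ho
      (by rw [hW'd]; exact ⟨2 * k, by ring⟩)
      (Cfsg.Agent.Helper96.OHAll.oall_even_char2 Q hQ h2 P hP)
    rw [hsup] at hmul
    refine ⟨P, ⟨?_, hP, (hmul.mp hplus).mp hW'p⟩, hPT⟩
    rw [hft] at hdimP
    omega

/-- ambient minus type: invariant elliptic `m`-spaces. -/
theorem t2_ell (hQ : IsNondegenerateQuadraticForm Q) (h2 : (2 : F) = 0)
    (T : Module.End F (ι → F)) (hT : ∀ v, Q (T v) = Q v) (hTT : T ^ 2 = 1)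
    (hminus : ¬ IsPlusTypeOn Q ⊤) (m : ℕ) (hm2 : 2 ≤ m) (hme : Even m)
    (hm : m + 2 ≤ Module.finrank F (ι → F))
    (hcond : 4 ∣ Module.finrank F (ι → F) ∨ m % 4 = 2) :
    ∃ W : Submodule F (ι → F), (Module.finrank F ↥W = m ∧
      IsNondegenerateOn (QuadraticMap.polar Q) W ∧ ¬ IsPlusTypeOn Q W) ∧ W.map T ≤ W := by
  have htop : ONd Q ⊤ := ond_top Q hQ
  have hTtop : (⊤ : Submodule F (ι → F)).map T ≤ ⊤ := le_top
  have hft : finrank F (⊤ : Submodule F (ι → F)) = finrank F (ι → F) := finrank_top F _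
  have hevn : Even (finrank F (ι → F)) := by
    rw [← hft]
    exact Cfsg.Agent.Helper96.OHAll.oall_even_char2 Q hQ h2 ⊤ htop
  by_cases hnm : 4 ∣ (finrank F (ι → F) - m)
  · obtain ⟨k, hk⟩ := hnm
    obtain ⟨W', -, hW'T, hW', hW'p, hW'd⟩ := t2_core Q hQ h2 T hT hTT ⊤ hTtop htop k
      (Or.inl (by rw [hft]; omega))
    obtain ⟨P, -, hPT, hP, -, hsup, ho, hdimP⟩ :=
      Cfsg.Agent.Helper31.OH5992.o_perp Q hQ T hT 2 (by norm_num) hTT ⊤ W' htop hW' le_top
        hTtop hW'T
    have hmul := Cfsg.Agent.Helper33.o_type_mul Q hQ W' P hW' hP ho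
      (by rw [hW'd]; exact ⟨2 * k, by ring⟩)
      (Cfsg.Agent.Helper96.OHAll.oall_even_char2 Q hQ h2 P hP)
    rw [hsup] at hmul
    refine ⟨P, ⟨?_, hP, fun hp => hminus (hmul.mpr (iff_of_true hW'p hp))⟩, hPT⟩
    rw [hft] at hdimP
    omega
  · have h4n : 4 ∣ finrank F (ι → F) ∧ m % 4 = 2 := by
      obtain ⟨j, hj⟩ := hevn
      obtain ⟨i, hi⟩ := hme
      rcases hcond with h | h
      · refine ⟨h, ?_⟩
        by_contra hc
        apply hnm
        omega
      · refine ⟨?_, h⟩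
        by_contra hc
        apply hnm
        omega
    obtain ⟨hn4, hm4⟩ := h4n
    obtain ⟨B, -, hBT, hB, hBd⟩ := t2_plane Q hQ h2 T hT hTT _ ⊤ rfl hTtop htop hminus
    obtain ⟨P, -, hPT, hP, -, hsup, ho, hdimP⟩ :=
      Cfsg.Agent.Helper31.OH5992.o_perp Q hQ T hT 2 (by norm_num) hTT ⊤ B htop hB le_top
        hTtop hBT
    have hevP := Cfsg.Agent.Helper96.OHAll.oall_even_char2 Q hQ h2 P hP
    have hevB : Even (finrank F B) := by rw [hBd]; exact ⟨1, rfl⟩
    have hmul := Cfsg.Agent.Helper33.o_type_mul Q hQ B P hB hP ho hevB hevP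
    rw [hsup] at hmul
    rw [hft] at hdimP
    by_cases hBp : OPl Q B
    · have hPp : ¬ OPl Q P := fun hp => hminus (hmul.mpr (iff_of_true hBp hp))
      obtain ⟨k, hk⟩ : 4 ∣ (finrank F (ι → F) - 2 - m) := by omega
      obtain ⟨W₁, hW₁P, hW₁T, hW₁, hW₁p, hW₁d⟩ := t2_core Q hQ h2 T hT hTT P hPT hP k
        (Or.inl (by omega))
      have hoBW : OOrth Q B W₁ := fun u hu v hv => ho u hu v (hW₁P hv)
      have hevW₁ : Even (finrank F W₁) := by rw [hW₁d]; exact ⟨2 * k, by ring⟩
      have hW'nd := Cfsg.Agent.Helper33.OType.nondeg_sup Q hQ B W₁ hB hW₁ hoBW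
      have hW'p : OPl Q (B ⊔ W₁) :=
        (Cfsg.Agent.Helper33.o_type_mul Q hQ B W₁ hB hW₁ hoBW hevB hevW₁).mpr
          (iff_of_true hBp hW₁p)
      have hW'd : finrank F (B ⊔ W₁ : Submodule F (ι → F)) = 2 + 4 * k := by
        rw [Cfsg.Agent.Helper33.OType.finrank_sup_of_orth Q B W₁ hB hoBW, hBd, hW₁d]
      have hW'T : (B ⊔ W₁).map T ≤ B ⊔ W₁ := by
        rw [Submodule.map_sup]
        exact sup_le (hBT.trans le_sup_left) (hW₁T.trans le_sup_right)
      obtain ⟨R, -, hRT, hR, -, hsupR, hoR, hdimR⟩ :=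
        Cfsg.Agent.Helper31.OH5992.o_perp Q hQ T hT 2 (by norm_num) hTT ⊤ (B ⊔ W₁) htop hW'nd
          le_top hTtop hW'T
      have hmulR := Cfsg.Agent.Helper33.o_type_mul Q hQ (B ⊔ W₁) R hW'nd hR hoR
        (by rw [hW'd]; exact ⟨1 + 2 * k, by ring⟩)
        (Cfsg.Agent.Helper96.OHAll.oall_even_char2 Q hQ h2 R hR)
      rw [hsupR] at hmulR
      refine ⟨R, ⟨?_, hR, fun hp => hminus (hmulR.mpr (iff_of_true hW'p hp))⟩, hRT⟩
      rw [hft] at hdimR
      omega
    · have hPp : OPl Q P := by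
        by_contra hp
        exact hminus (hmul.mpr (iff_of_false hBp hp))
      obtain ⟨k, hk⟩ : 4 ∣ (m - 2) := by omega
      obtain ⟨W₁, hW₁P, hW₁T, hW₁, hW₁p, hW₁d⟩ := t2_core Q hQ h2 T hT hTT P hPT hP k
        (Or.inr ⟨hPp, by omega⟩)
      have hoBW : OOrth Q B W₁ := fun u hu v hv => ho u hu v (hW₁P hv)
      have hevW₁ : Even (finrank F W₁) := by rw [hW₁d]; exact ⟨2 * k, by ring⟩
      refine ⟨B ⊔ W₁, ⟨?_, Cfsg.Agent.Helper33.OType.nondeg_sup Q hQ B W₁ hB hW₁ hoBW, ?_⟩, ?_⟩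
      · rw [Cfsg.Agent.Helper33.OType.finrank_sup_of_orth Q B W₁ hB hoBW, hBd, hW₁d]
        omega
      · intro hp
        have h1 := (Cfsg.Agent.Helper33.o_type_mul Q hQ B W₁ hB hW₁ hoBW hevB hevW₁).mp hp
        exact hBp (h1.mpr hW₁p)
      · rw [Submodule.map_sup]
        exact sup_le (hBT.trans le_sup_left) (hW₁T.trans le_sup_right)

end Cfsg.Agent.Helper60.T2
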