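import Mathlib

/-!
# S5980, piece FRM2: isometries `x` of `J₂ ⊗ diag κ` with `x² = -1` have a standard frame
-/

set_option autoImplicit false

namespace Cfsg.Agent.Helper60.TFFRM2

open Matrix Polynomial
open scoped Kronecker

/-- `s² + t² = c` is solvable in a finite field of odd characteristic -/
theorem sum_sq {F : Type*} [Field F] [Fintype F] (h2 : (2 : F) ≠ 0) (c : F) :
    ∃ s t : F, s ^ 2 + t ^ 2 = c := by
  have hchar : ringChar F ≠ 2 := by
    intro h
    have := ringChar.of_eq h
    exact h2 (by exact_mod_cast CharP.cast_eq_zero F 2)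
  have hodd : Fintype.card F % 2 = 1 := FiniteField.odd_card_of_char_ne_two hchar
  obtain ⟨s, t, hst⟩ := FiniteField.exists_root_sum_quadratic (R := F) (f := X ^ 2)
    (g := X ^ 2 - C c) (degree_X_pow 2) (degree_X_pow_sub_C (by norm_num) c) hodd
  refine ⟨s, t, ?_⟩
  simp only [eval_pow, eval_X, eval_sub, eval_C] at hst
  linear_combination hst

/-- abstract core: a frame `u_j, T u_j` with prescribed values `B (u_j) (T u_j) = κ_j` -/
theorem core {F : Type*} [Field F] [Fintype F] {V : Type*} [AddCommGroup V] [Module F V]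
    [FiniteDimensional F V] (h2 : (2 : F) ≠ 0) (B : LinearMap.BilinForm F V)
    (halt : ∀ v, B v v = 0) (hnd : ∀ v, (∀ w, B v w = 0) → v = 0) (T : V →ₗ[F] V)
    (hT : ∀ u v, B (T u) (T v) = B u v) (hTT : ∀ v, T (T v) = -v) (κ : ℕ → F)
    (hκ : ∀ j, κ j ≠ 0) (b : ℕ) (hdim : Module.finrank F V = 2 * b) :
    ∀ k, k ≤ b → ∃ u : ℕ → V, (∀ j, j < k → B (u j) (T (u j)) = κ j) ∧
      (∀ j l, j < k → l < k → j ≠ l → B (u j) (u l) = 0 ∧ B (u j) (T (u l)) = 0) := by
  have hskew : ∀ u v, B u v = -B v u := by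
    intro u v
    have h := halt (u + v)
    simp only [map_add, LinearMap.add_apply, halt, zero_add, add_zero] at h
    linear_combination h
  have hsym : ∀ u v, B u (T v) = B v (T u) := by
    intro u v
    have h1 := hT u (T v)
    rw [hTT, map_neg] at h1
    rw [← h1, hskew (T u) v, neg_neg]
  intro k
  induction k with
  | zero =>
    intro _
    exact ⟨fun _ => 0, fun j hj => absurd hj (Nat.not_lt_zero j),
      fun j l hj => absurd hj (Nat.not_lt_zero j)⟩
  | succ k ih =>
    intro hk
    obtain ⟨u, hu1, hu2⟩ := ih (by omega)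
    have claim : ∃ w : V, (∀ j, j < k → B w (u j) = 0 ∧ B w (T (u j)) = 0) ∧ B w (T w) ≠ 0 := by
      by_contra hcon
      push Not at hcon
      have hadd : ∀ w w', (∀ j, j < k → B w (u j) = 0 ∧ B w (T (u j)) = 0) →
          (∀ j, j < k → B w' (u j) = 0 ∧ B w' (T (u j)) = 0) →
          (∀ j, j < k → B (w + w') (u j) = 0 ∧ B (w + w') (T (u j)) = 0) := by
        intro w w' hw hw' j hj
        simp only [map_add, LinearMap.add_apply, (hw j hj).1, (hw j hj).2, (hw' j hj).1,
          (hw' j hj).2, add_zero, and_self]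
      have hTw : ∀ w, (∀ j, j < k → B w (u j) = 0 ∧ B w (T (u j)) = 0) →
          (∀ j, j < k → B (T w) (u j) = 0 ∧ B (T w) (T (u j)) = 0) := by
        intro w hw j hj
        refine ⟨?_, ?_⟩
        · rw [hskew, hsym, (hw j hj).2, neg_zero]
        · rw [hT, (hw j hj).1]
      have ha : ∀ w w', (∀ j, j < k → B w (u j) = 0 ∧ B w (T (u j)) = 0) →
          (∀ j, j < k → B w' (u j) = 0 ∧ B w' (T (u j)) = 0) → B w (T w') = 0 := by
        intro w w' hw hw'
        have h1 := hcon (w + w') (hadd w w' hw hw')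
        have h3 := hcon w hw
        have h4 := hcon w' hw'
        have h5 := hsym w' w
        simp only [map_add, LinearMap.add_apply] at h1
        have h6 : (2 : F) * B w (T w') = 0 := by linear_combination h1 - h3 - h4 - h5
        exact (mul_eq_zero.1 h6).resolve_left h2
      have hb : ∀ w w', (∀ j, j < k → B w (u j) = 0 ∧ B w (T (u j)) = 0) →
          (∀ j, j < k → B w' (u j) = 0 ∧ B w' (T (u j)) = 0) → B w w' = 0 := by
        intro w w' hw hw'
        have h1 := ha w (T w') hw (hTw w' hw')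
        rw [hTT, map_neg] at h1
        exact neg_eq_zero.1 h1
      obtain ⟨π, hπdef⟩ : ∃ π : V → V, ∀ v, π v = ∑ j ∈ Finset.range k,
          ((B v (T (u j)) / κ j) • u j - (B v (u j) / κ j) • T (u j)) := ⟨_, fun v => rfl⟩
      have hπ : ∀ v, ∀ l, l < k → B (v - π v) (u l) = 0 ∧ B (v - π v) (T (u l)) = 0 := by
        intro v l hl
        have hB1 : ∀ j, j < k → B (u j) (u l) = 0 := by
          intro j hj
          by_cases hjl : j = l
          · rw [hjl]
            exact halt _
          · exact (hu2 j l hj hl hjl).1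
        have hB2 : ∀ j, j < k → B (T (u j)) (u l) = if j = l then -κ l else 0 := by
          intro j hj
          by_cases hjl : j = l
          · rw [if_pos hjl, hjl, hskew, hu1 l hl]
          · rw [if_neg hjl, hskew, (hu2 l j hl hj (Ne.symm hjl)).2, neg_zero]
        have hB3 : ∀ j, j < k → B (u j) (T (u l)) = if j = l then κ l else 0 := by
          intro j hj
          by_cases hjl : j = l
          · rw [if_pos hjl, hjl, hu1 l hl]
          · rw [if_neg hjl, (hu2 j l hj hl hjl).2]
        have hB4 : ∀ j, j < k → B (T (u j)) (T (u l)) = 0 := by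
          intro j hj
          rw [hT]
          exact hB1 j hj
        have hκl := hκ l
        refine ⟨?_, ?_⟩
        · rw [hπdef]
          simp only [map_sub, map_sum, map_smul, LinearMap.sub_apply, LinearMap.sum_apply,
            LinearMap.smul_apply, smul_eq_mul]
          rw [Finset.sum_congr rfl (g := fun j => if j = l then B v (u l) else 0)]
          · rw [Finset.sum_ite_eq' (Finset.range k) l, if_pos (Finset.mem_range.2 hl), sub_self]
          · intro j hj
            rw [hB1 j (Finset.mem_range.1 hj), hB2 j (Finset.mem_range.1 hj)]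
            by_cases hjl : j = l
            · rw [if_pos hjl, if_pos hjl, hjl]
              field_simp
              ring
            · rw [if_neg hjl, if_neg hjl]
              ring
        · rw [hπdef]
          simp only [map_sub, map_sum, map_smul, LinearMap.sub_apply, LinearMap.sum_apply,
            LinearMap.smul_apply, smul_eq_mul]
          rw [Finset.sum_congr rfl (g := fun j => if j = l then B v (T (u l)) else 0)]
          · rw [Finset.sum_ite_eq' (Finset.range k) l, if_pos (Finset.mem_range.2 hl), sub_self]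
          · intro j hj
            rw [hB3 j (Finset.mem_range.1 hj), hB4 j (Finset.mem_range.1 hj)]
            by_cases hjl : j = l
            · rw [if_pos hjl, if_pos hjl, hjl]
              field_simp
              ring
            · rw [if_neg hjl, if_neg hjl]
              ring
      have hzero : ∀ w, (∀ j, j < k → B w (u j) = 0 ∧ B w (T (u j)) = 0) → w = 0 := by
        intro w hw
        apply hnd
        intro v
        have h1 : v = π v + (v - π v) := by abel
        rw [h1, map_add, hb w _ hw (hπ v), add_zero, hπdef]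
        simp only [map_sum, map_sub, map_smul, smul_eq_mul]
        apply Finset.sum_eq_zero
        intro j hj
        rw [(hw j (Finset.mem_range.1 hj)).1, (hw j (Finset.mem_range.1 hj)).2]
        ring
      obtain ⟨f, hf⟩ : ∃ f : Fin k × Fin 2 → V, f = fun p => if p.2 = 0 then u p.1 else T (u p.1) :=
        ⟨_, rfl⟩
      have hspan : ∀ v, v ∈ Submodule.span F (Set.range f) := by
        intro v
        have h1 : v = π v := sub_eq_zero.1 (hzero _ (hπ v))
        rw [h1, hπdef]
        apply Submodule.sum_mem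
        intro j hj
        have hj' := Finset.mem_range.1 hj
        apply Submodule.sub_mem
        · apply Submodule.smul_mem
          apply Submodule.subset_span
          exact ⟨(⟨j, hj'⟩, 0), by rw [hf]; simp⟩
        · apply Submodule.smul_mem
          apply Submodule.subset_span
          exact ⟨(⟨j, hj'⟩, 1), by rw [hf]; simp⟩
      have htop : Submodule.span F (Set.range f) = ⊤ := by
        rw [eq_top_iff]
        intro v _
        exact hspan v
      have hle : Module.finrank F V ≤ k * 2 := by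
        have h4 := finrank_range_le_card (R := F) f
        rw [Set.finrank, htop, finrank_top, Fintype.card_prod, Fintype.card_fin,
          Fintype.card_fin] at h4
        exact h4
      omega
    obtain ⟨w, hw, hwa⟩ := claim
    obtain ⟨s, t, hst⟩ := sum_sq h2 (κ k / B w (T w))
    have hst' : B w (T w) * (s ^ 2 + t ^ 2) = κ k := by
      rw [hst]
      field_simp
    obtain ⟨n, hn⟩ : ∃ n : V, n = s • w + t • T w := ⟨_, rfl⟩
    have hn1 : ∀ j, j < k → B n (u j) = 0 ∧ B n (T (u j)) = 0 := by
      intro j hj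
      have h1 : B (T w) (u j) = 0 := by rw [hskew, hsym, (hw j hj).2, neg_zero]
      have h3 : B (T w) (T (u j)) = 0 := by rw [hT, (hw j hj).1]
      rw [hn]
      simp only [map_add, map_smul, LinearMap.add_apply, LinearMap.smul_apply, smul_eq_mul,
        (hw j hj).1, (hw j hj).2, h1, h3, mul_zero, add_zero, and_self]
    have hn2 : B n (T n) = κ k := by
      have hTn : T n = s • T w - t • w := by
        rw [hn, map_add, map_smul, map_smul, hTT]
        module
      have h1 : B (T w) w = -B w (T w) := hskew _ _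
      rw [hTn, hn]
      simp only [map_add, map_sub, map_smul, LinearMap.add_apply,
        LinearMap.smul_apply, smul_eq_mul, halt, h1]
      linear_combination hst'
    refine ⟨Function.update u k n, ?_, ?_⟩
    · intro j hj
      rcases Nat.lt_succ_iff_lt_or_eq.1 hj with hj' | hjk
      · rw [Function.update_of_ne (ne_of_lt hj')]
        exact hu1 j hj'
      · rw [hjk, Function.update_self]
        exact hn2
    · intro j l hj hl hjl
      rcases Nat.lt_succ_iff_lt_or_eq.1 hj with hj' | hjk
      · rcases Nat.lt_succ_iff_lt_or_eq.1 hl with hl' | hlk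
        · rw [Function.update_of_ne (ne_of_lt hj'), Function.update_of_ne (ne_of_lt hl')]
          exact hu2 j l hj' hl' hjl
        · rw [hlk, Function.update_of_ne (ne_of_lt hj'), Function.update_self]
          exact ⟨by rw [hskew, (hn1 j hj').1, neg_zero], by rw [hsym, (hn1 j hj').2]⟩
      · have hl' : l < k := by omega
        rw [hjk, Function.update_self, Function.update_of_ne (ne_of_lt hl')]
        exact hn1 l hl'

/-- two square matrices with the same columns are equal -/
theorem ext_col {F : Type*} [Field F] {ι : Type*} [Fintype ι] [DecidableEq ι] (M N : Matrix ι ι F)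
    (h : ∀ q, M *ᵥ Pi.single q 1 = N *ᵥ Pi.single q 1) : M = N := by
  ext p q
  have h1 := congrFun (h q) p
  rwa [Matrix.mulVec_single_one, Matrix.mulVec_single_one] at h1

/-! ## Piece FRM2 -/
theorem frame_neg {F : Type*} [Field F] [Fintype F] (h2 : (2 : F) ≠ 0) {b : ℕ} (κ : Fin b → F)
    (hκ : ∀ j, κ j ≠ 0) (x : Matrix (Fin 2 × Fin b) (Fin 2 × Fin b) F)
    (hx : xᵀ * ((!![0, 1; -1, 0] : Matrix (Fin 2) (Fin 2) F) ⊗ₖ Matrix.diagonal κ) * x =
      (!![0, 1; -1, 0] : Matrix (Fin 2) (Fin 2) F) ⊗ₖ Matrix.diagonal κ)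
    (hxx : x * x = -1) :
    ∃ (h h' : Matrix (Fin 2 × Fin b) (Fin 2 × Fin b) F), h * h' = 1 ∧ h' * h = 1 ∧
      hᵀ * ((!![0, 1; -1, 0] : Matrix (Fin 2) (Fin 2) F) ⊗ₖ Matrix.diagonal κ) * h =
        (!![0, 1; -1, 0] : Matrix (Fin 2) (Fin 2) F) ⊗ₖ Matrix.diagonal κ ∧
      x * h = h * ((!![0, -1; 1, 0] : Matrix (Fin 2) (Fin 2) F) ⊗ₖ
        (1 : Matrix (Fin b) (Fin b) F)) := by
  classical
  obtain ⟨E, hEdef⟩ : ∃ E : Matrix (Fin 2 × Fin b) (Fin 2 × Fin b) F,
      E = (!![0, 1; -1, 0] : Matrix (Fin 2) (Fin 2) F) ⊗ₖ Matrix.diagonal κ := ⟨_, rfl⟩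
  rw [← hEdef] at hx ⊢
  obtain ⟨E', hE'def⟩ : ∃ E' : Matrix (Fin 2 × Fin b) (Fin 2 × Fin b) F,
      E' = (!![0, -1; 1, 0] : Matrix (Fin 2) (Fin 2) F) ⊗ₖ Matrix.diagonal (fun j => (κ j)⁻¹) :=
    ⟨_, rfl⟩
  have hEE' : E * E' = 1 := by
    rw [hEdef, hE'def, ← Matrix.mul_kronecker_mul, Matrix.diagonal_mul_diagonal]
    have h1 : (!![0, 1; -1, 0] : Matrix (Fin 2) (Fin 2) F) * !![0, -1; 1, 0] = 1 := by
      ext i j
      fin_cases i <;> fin_cases j <;> simp
    have h3 : (Matrix.diagonal fun i => κ i * (κ i)⁻¹) = (1 : Matrix (Fin b) (Fin b) F) := by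
      rw [← Matrix.diagonal_one]
      congr 1
      funext i
      exact mul_inv_cancel₀ (hκ i)
    rw [h1, h3, Matrix.one_kronecker_one]
  have hE'E : E' * E = 1 := mul_eq_one_comm.1 hEE'
  have hEt : Eᵀ = -E := by
    rw [hEdef]
    ext ⟨i, j⟩ ⟨i', j'⟩
    rw [Matrix.transpose_apply, Matrix.neg_apply, Matrix.kroneckerMap_apply,
      Matrix.kroneckerMap_apply, Matrix.diagonal_apply, Matrix.diagonal_apply]
    by_cases hjj : j = j'
    · subst hjj
      fin_cases i <;> fin_cases i' <;> simp
    · have hjj' : ¬ j' = j := fun h => hjj h.symm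
      simp [hjj, hjj']
  obtain ⟨B, hBdef⟩ : ∃ B : LinearMap.BilinForm F (Fin 2 × Fin b → F), B = Matrix.toBilin' E :=
    ⟨_, rfl⟩
  obtain ⟨T, hTdef⟩ : ∃ T : (Fin 2 × Fin b → F) →ₗ[F] (Fin 2 × Fin b → F), T = Matrix.toLin' x :=
    ⟨_, rfl⟩
  have hBapp : ∀ v w, B v w = v ⬝ᵥ E *ᵥ w := by
    intro v w
    rw [hBdef, Matrix.toBilin'_apply']
  have halt : ∀ v, B v v = 0 := by
    intro v
    have h1 : v ⬝ᵥ E *ᵥ v = -(v ⬝ᵥ E *ᵥ v) := by
      conv_lhs => rw [dotProduct_comm, ← Matrix.vecMul_transpose, ← Matrix.dotProduct_mulVec, hEt,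
        Matrix.neg_mulVec, dotProduct_neg]
    rw [hBapp]
    have h3 : (2 : F) * (v ⬝ᵥ E *ᵥ v) = 0 := by linear_combination h1
    exact (mul_eq_zero.1 h3).resolve_left h2
  have hnd : ∀ v, (∀ w, B v w = 0) → v = 0 := by
    intro v hv
    funext p
    have h1 := hv (E' *ᵥ Pi.single p 1)
    rw [hBapp, Matrix.mulVec_mulVec, hEE', Matrix.one_mulVec, dotProduct_single, mul_one] at h1
    exact h1
  have hT : ∀ u v, B (T u) (T v) = B u v := by
    intro u v
    have h1 := Matrix.toBilin'_comp E x x
    rw [hx] at h1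
    rw [hBdef, hTdef, ← LinearMap.BilinForm.comp_apply, h1]
  have hTT : ∀ v, T (T v) = -v := by
    intro v
    rw [hTdef, Matrix.toLin'_apply, Matrix.toLin'_apply, Matrix.mulVec_mulVec, hxx,
      Matrix.neg_mulVec, Matrix.one_mulVec]
  have hdim : Module.finrank F (Fin 2 × Fin b → F) = 2 * b := by
    rw [Module.finrank_fintype_fun_eq_card, Fintype.card_prod, Fintype.card_fin, Fintype.card_fin]
  obtain ⟨κ', hκ'def⟩ : ∃ κ' : ℕ → F, κ' = fun j => if hj : j < b then κ ⟨j, hj⟩ else 1 :=
    ⟨_, rfl⟩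
  have hκ' : ∀ j, κ' j ≠ 0 := by
    intro j
    rw [hκ'def]
    by_cases hj : j < b
    · simp only [dif_pos hj]
      exact hκ _
    · simp only [dif_neg hj]
      exact one_ne_zero
  have hκ'j : ∀ j : Fin b, κ' j = κ j := by
    intro j
    rw [hκ'def]
    simp only [dif_pos j.isLt]
  obtain ⟨u, hu1, hu2⟩ := core h2 B halt hnd T hT hTT κ' hκ' b hdim b le_rfl
  have hskew : ∀ u v, B u v = -B v u := by
    intro u v
    have h := halt (u + v)
    simp only [map_add, LinearMap.add_apply, halt, zero_add, add_zero] at h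
    linear_combination h
  obtain ⟨col, hcol⟩ : ∃ col : Fin 2 × Fin b → (Fin 2 × Fin b → F),
      col = fun q => if q.1 = 0 then u q.2 else T (u q.2) := ⟨_, rfl⟩
  have hcol0 : ∀ j : Fin b, col (0, j) = u j := by
    intro j
    rw [hcol]
    simp
  have hcol1 : ∀ j : Fin b, col (1, j) = T (u j) := by
    intro j
    rw [hcol]
    simp
  have hEent : ∀ (i i' : Fin 2) (j j' : Fin b), E (i, j) (i', j') =
      (!![0, 1; -1, 0] : Matrix (Fin 2) (Fin 2) F) i i' * (if j = j' then κ j else 0) := by
    intro i i' j j'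
    rw [hEdef, Matrix.kroneckerMap_apply, Matrix.diagonal_apply]
  have hBuu : ∀ j j' : Fin b, B (u j) (u j') = 0 := by
    intro j j'
    by_cases hjj : j = j'
    · rw [hjj]
      exact halt _
    · exact (hu2 j j' j.isLt j'.isLt (fun h => hjj (Fin.ext h))).1
  have hBuT : ∀ j j' : Fin b, B (u j) (T (u j')) = if j = j' then κ j else 0 := by
    intro j j'
    by_cases hjj : j = j'
    · rw [if_pos hjj, ← hjj, hu1 j j.isLt, hκ'j]
    · rw [if_neg hjj]
      exact (hu2 j j' j.isLt j'.isLt (fun h => hjj (Fin.ext h))).2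
  have hBcol : ∀ q q', B (col q) (col q') = E q q' := by
    rintro ⟨i, j⟩ ⟨i', j'⟩
    rw [hEent]
    fin_cases i <;> fin_cases i'
    · simp only [Fin.zero_eta, hcol0, hBuu]
      simp
    · simp only [Fin.zero_eta, Fin.mk_one, hcol0, hcol1, hBuT]
      simp
    · simp only [Fin.zero_eta, Fin.mk_one, hcol0, hcol1]
      rw [hskew, hBuT]
      by_cases hjj : j = j'
      · simp [hjj]
      · have hjj' : ¬ j' = j := fun h => hjj h.symm
        simp [hjj, hjj']
    · simp only [Fin.mk_one, hcol1, hT, hBuu]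
      simp
  obtain ⟨h, hhdef⟩ : ∃ h : Matrix (Fin 2 × Fin b) (Fin 2 × Fin b) F,
      h = Matrix.of (fun p q => col q p) := ⟨_, rfl⟩
  have hhcol : ∀ q, h *ᵥ Pi.single q 1 = col q := by
    intro q
    funext p
    rw [Matrix.mulVec_single_one, hhdef]
    rfl
  have hform : hᵀ * E * h = E := by
    ext q q'
    rw [← Matrix.toBilin'_single (hᵀ * E * h) q q', ← Matrix.toBilin'_comp,
      LinearMap.BilinForm.comp_apply, Matrix.toLin'_apply, Matrix.toLin'_apply, hhcol, hhcol,
      ← hBdef, hBcol]
  refine ⟨h, E' * hᵀ * E, ?_, ?_, hform, ?_⟩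
  · apply mul_eq_one_comm.1
    rw [Matrix.mul_assoc, Matrix.mul_assoc, ← Matrix.mul_assoc hᵀ, hform, hE'E]
  · rw [Matrix.mul_assoc, Matrix.mul_assoc, ← Matrix.mul_assoc hᵀ, hform, hE'E]
  · apply ext_col
    rintro ⟨i, j⟩
    rw [← Matrix.mulVec_mulVec, ← Matrix.mulVec_mulVec, hhcol]
    have hxT : ∀ v, x *ᵥ v = T v := by
      intro v
      rw [hTdef, Matrix.toLin'_apply]
    fin_cases i
    · have h1 : ((!![0, -1; 1, 0] : Matrix (Fin 2) (Fin 2) F) ⊗ₖ (1 : Matrix (Fin b) (Fin b) F))
          *ᵥ Pi.single ((0 : Fin 2), j) 1 = Pi.single ((1 : Fin 2), j) 1 := by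
        funext ⟨i', j'⟩
        rw [Matrix.mulVec_single_one]
        by_cases hj : j' = j <;> fin_cases i' <;>
          simp [Matrix.kroneckerMap_apply, Matrix.one_apply, Pi.single_apply, hj]
      simp only [Fin.zero_eta]
      rw [h1, hhcol, hcol0, hcol1, hxT]
    · have h1 : ((!![0, -1; 1, 0] : Matrix (Fin 2) (Fin 2) F) ⊗ₖ (1 : Matrix (Fin b) (Fin b) F))
          *ᵥ Pi.single ((1 : Fin 2), j) 1 = -Pi.single ((0 : Fin 2), j) 1 := by
        funext ⟨i', j'⟩
        rw [Matrix.mulVec_single_one]
        by_cases hj : j' = j <;> fin_cases i' <;>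
          simp [Matrix.kroneckerMap_apply, Matrix.one_apply, Pi.single_apply, hj]
      simp only [Fin.mk_one]
      rw [h1, Matrix.mulVec_neg, hhcol, hcol0, hcol1, hxT, hTT]

end Cfsg.Agent.Helper60.TFFRM2
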