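import Mathlib
import Cfsg.Prelude.Def_GeometricClasses
import Cfsg.Agent.Helper60.SFRDETB

/-!
# S5981, piece EXZ: `x ^ r = z`, `det x = 1`, `x` of size `r`, `r ‖ q - 1` force `z = 1`
-/

set_option autoImplicit false
open Matrix Polynomial

namespace Cfsg.Agent.Helper60.THEXZ

variable {F : Type*} [Field F] [Fintype F]

/-- EXZ -/
theorem exc_pow_one (r : ℕ) (hr : r.Prime) (hr2 : r ≠ 2)
    (hv : padicValNat r (Fintype.card F - 1) = 1)
    (x : Matrix (Fin r) (Fin r) F) (hdet : x.det = 1) (z : F)
    (hx : x ^ r = z • (1 : Matrix (Fin r) (Fin r) F)) : z = 1 := by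
  classical
  have hfact : Fact r.Prime := ⟨hr⟩
  have hzr : z ^ r = 1 := by
    have h1 := congrArg Matrix.det hx
    rw [Matrix.det_pow, hdet, one_pow, Matrix.det_smul, Matrix.det_one, mul_one,
      Fintype.card_fin] at h1
    exact h1.symm
  by_contra hz1
  have hnp : ∀ b : F, b ^ r ≠ z := by
    intro b hb
    have hb0 : b ≠ 0 := by
      rintro rfl
      rw [zero_pow hr.ne_zero] at hb
      rw [← hb, zero_pow hr.ne_zero] at hzr
      exact zero_ne_one hzr
    have hord : orderOf b = r ^ (1 + 1) := by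
      apply orderOf_eq_prime_pow
      · rw [pow_one, hb]
        exact hz1
      · rw [pow_succ, pow_mul, pow_one, hb]
        exact hzr
    have hdvd : r ^ 2 ∣ Fintype.card F - 1 := by
      have h1 : orderOf b ∣ Fintype.card F - 1 :=
        orderOf_dvd_of_pow_eq_one (FiniteField.pow_card_sub_one_eq_one b hb0)
      rw [hord] at h1
      exact h1
    have hq1 : Fintype.card F - 1 ≠ 0 := by
      have := Fintype.one_lt_card (α := F)
      omega
    have h3 := (padicValNat_dvd_iff_le hq1).mp hdvd
    omega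
  obtain ⟨s, hs, hdets⟩ := Cfsg.Agent.Helper60.det_of_irr r hr2 r x z hnp hx
  have hs1 : s = 1 := by
    have h1 : r * 1 = r * s := by
      rw [mul_one]
      exact hs
    exact (Nat.eq_of_mul_eq_mul_left hr.pos h1).symm
  rw [hs1, pow_one, hdet] at hdets
  exact hz1 hdets.symm

end Cfsg.Agent.Helper60.THEXZ
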