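import Mathlib
import Cfsg.Prelude.Def_GeometricClasses

/-!
# S5981, piece ISOCH: a similarity of prime order `r ∤ q - 1` has the characteristic polynomial
of its inverse
-/

set_option autoImplicit false
open Matrix Polynomial

namespace Cfsg.Agent.Helper60.THISOCH

variable {F : Type*} [Field F] [Fintype F]

/-- ISOCH -/
theorem sim_charpoly_inv {n : ℕ} (hn : 0 < n) (G : Matrix (Fin n) (Fin n) F) (hG : G.det ≠ 0)
    (r : ℕ) (hr : r.Prime) (hrq : ¬ r ∣ Fintype.card F - 1)
    (y y' : Matrix (Fin n) (Fin n) F) (hyy : y * y' = 1) (hyr : y ^ r = 1) (c : F) (hc : c ≠ 0)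
    (hy : yᵀ * G * y = c • G) : y'.charpoly = y.charpoly := by
  classical
  have hne : Nonempty (Fin n) := ⟨⟨0, hn⟩⟩
  have hpow : ∀ k : ℕ, (y ^ k)ᵀ * G * y ^ k = c ^ k • G := by
    intro k
    induction k with
    | zero => simp
    | succ k ih =>
      rw [pow_succ, Matrix.transpose_mul]
      calc yᵀ * (y ^ k)ᵀ * G * (y ^ k * y) = yᵀ * ((y ^ k)ᵀ * G * y ^ k) * y := by
            simp only [Matrix.mul_assoc]
        _ = c ^ (k + 1) • G := by
            rw [ih, Matrix.mul_smul, Matrix.smul_mul, hy, smul_smul, pow_succ]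
  have hG0 : G ≠ 0 := by
    rintro rfl
    exact hG Matrix.det_zero
  obtain ⟨i, j, hij⟩ : ∃ i j, G i j ≠ 0 := by
    by_contra hcon
    push Not at hcon
    exact hG0 (Matrix.ext hcon)
  have hcr : c ^ r = 1 := by
    have h1 := hpow r
    rw [hyr, Matrix.transpose_one, Matrix.one_mul, Matrix.mul_one] at h1
    have h2 := congrFun (congrFun h1 i) j
    rw [Matrix.smul_apply, smul_eq_mul] at h2
    have h3 : (c ^ r - 1) * G i j = 0 := by
      rw [sub_mul, one_mul, ← h2, sub_self]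
    rcases mul_eq_zero.mp h3 with h4 | h4
    · exact sub_eq_zero.mp h4
    · exact absurd h4 hij
  have hc1 : c = 1 := by
    have h1 : orderOf c ∣ r := orderOf_dvd_of_pow_eq_one hcr
    have h2 : orderOf c ∣ Fintype.card F - 1 :=
      orderOf_dvd_of_pow_eq_one (FiniteField.pow_card_sub_one_eq_one c hc)
    rcases (Nat.dvd_prime hr).mp h1 with h3 | h3
    · exact orderOf_eq_one_iff.mp h3
    · rw [h3] at h2
      exact absurd h2 hrq
  rw [hc1, one_smul] at hy
  have h1 : yᵀ * G = G * y' := by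
    calc yᵀ * G = yᵀ * G * (y * y') := by rw [hyy, Matrix.mul_one]
      _ = yᵀ * G * y * y' := by rw [Matrix.mul_assoc (yᵀ * G)]
      _ = G * y' := by rw [hy]
  obtain ⟨M, hMv⟩ : ∃ M : (Matrix (Fin n) (Fin n) F)ˣ, (M : Matrix (Fin n) (Fin n) F) = G :=
    ⟨Matrix.GeneralLinearGroup.mkOfDetNeZero G hG, rfl⟩
  have h2 : y' = G⁻¹ * yᵀ * G := by
    rw [Matrix.mul_assoc, h1, ← Matrix.mul_assoc, Matrix.nonsing_inv_mul G (IsUnit.mk0 _ hG),
      Matrix.one_mul]
  rw [h2, ← hMv, Matrix.charpoly_units_conj', Matrix.charpoly_transpose]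

end Cfsg.Agent.Helper60.THISOCH
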