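import Mathlib
import Cfsg.Prelude.Def_GeometricClasses

/-!
# S5981, piece TVBAD: a transvection is not conjugate to a similarity of a symmetric form
-/

set_option autoImplicit false
open Matrix Polynomial

namespace Cfsg.Agent.Helper60.THTVBAD

variable {F : Type*} [Field F]

theorem tv_pow_char (p : ℕ) [CharP F p] {n : ℕ} (i j : Fin n) (hij : i ≠ j) :
    (Matrix.transvection i j (1 : F)) ^ p = 1 := by
  have key : ∀ k : ℕ, (Matrix.transvection i j (1 : F)) ^ k = Matrix.transvection i j (k : F) := by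
    intro k
    induction k with
    | zero => rw [pow_zero, Nat.cast_zero, Matrix.transvection_zero]
    | succ k ih =>
      rw [pow_succ, ih, Matrix.transvection_mul_transvection_same (i := i) (j := j) hij,
        Nat.cast_succ]
  rw [key, CharP.cast_eq_zero, Matrix.transvection_zero]

/-- if `1 + N` with `N * N = 0` is an isometry of the symmetric `G`, then `G * N` is skew -/
theorem tv_core {n : ℕ} (G : Matrix (Fin n) (Fin n) F) (hGs : Gᵀ = G)
    (N : Matrix (Fin n) (Fin n) F) (hNN : N * N = 0)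
    (h : (1 + N)ᵀ * G * (1 + N) = G) : (G * N)ᵀ = - (G * N) := by
  have h1 : Nᵀ * G + G * N + Nᵀ * G * N = 0 := by
    have h0 : (1 + N)ᵀ * G * (1 + N) = G + (Nᵀ * G + G * N + Nᵀ * G * N) := by
      rw [Matrix.transpose_add, Matrix.transpose_one]
      noncomm_ring
    rw [h0] at h
    exact add_eq_left.mp h
  have h3 : Nᵀ * G * N = 0 := by
    have h4 := congrArg (· * N) h1
    simp only [add_mul, zero_mul] at h4
    rw [Matrix.mul_assoc G N N, hNN, Matrix.mul_zero, Matrix.mul_assoc (Nᵀ * G) N N, hNN,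
      Matrix.mul_zero, add_zero, add_zero] at h4
    exact h4
  rw [h3, add_zero] at h1
  rw [Matrix.transpose_mul, hGs]
  exact eq_neg_of_add_eq_zero_left h1

/-- a skew matrix of the form `vecMulVec w φ` with `w ≠ 0` has `φ = 0` -/
theorem tv_skew_rank_one (h2 : (2 : F) ≠ 0) {n : ℕ} (w φ : Fin n → F) (hw : w ≠ 0)
    (h : (Matrix.vecMulVec w φ)ᵀ = - Matrix.vecMulVec w φ) : φ = 0 := by
  have hsk : ∀ i j, w j * φ i = -(w i * φ j) := by
    intro i j
    have h1 := congrFun (congrFun h i) j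
    rw [Matrix.transpose_apply, Matrix.neg_apply, Matrix.vecMulVec_apply,
      Matrix.vecMulVec_apply] at h1
    exact h1
  obtain ⟨i, hi⟩ : ∃ i, w i ≠ 0 := by
    by_contra hcon
    push Not at hcon
    exact hw (funext hcon)
  have hφi : φ i = 0 := by
    have h1 := hsk i i
    have h3 : (2 : F) * (w i * φ i) = 0 := by
      rw [two_mul]
      nth_rewrite 1 [h1]
      exact neg_add_cancel _
    rcases mul_eq_zero.mp h3 with h4 | h4
    · exact absurd h4 h2
    · rcases mul_eq_zero.mp h4 with h5 | h5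
      · exact absurd h5 hi
      · exact h5
  funext j
  have h1 := hsk i j
  rw [hφi, mul_zero] at h1
  have h3 : w i * φ j = 0 := by
    rw [← neg_eq_zero]
    exact h1.symm
  rcases mul_eq_zero.mp h3 with h5 | h5
  · exact absurd h5 hi
  · exact h5

/-- TVBAD -/
theorem tv_bad [Fintype F] (h2 : (2 : F) ≠ 0) (p : ℕ) [Fact p.Prime] [CharP F p] {n : ℕ} (hn : 2 ≤ n)
    (G : Matrix (Fin n) (Fin n) F) (hGs : Gᵀ = G) (hG : G.det ≠ 0) :
    ∃ x : GL (Fin n) F, x ∈ Cfsg.Geo.specialLinear (Fin n) F ∧ x ^ p = 1 ∧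
      (∀ z : F, (x : Matrix (Fin n) (Fin n) F) ≠ z • (1 : Matrix (Fin n) (Fin n) F)) ∧
      ∀ (g : GL (Fin n) F) (c : F), c ≠ 0 →
        ((g⁻¹ * x * g : GL (Fin n) F) : Matrix (Fin n) (Fin n) F)ᵀ * G *
          ((g⁻¹ * x * g : GL (Fin n) F) : Matrix (Fin n) (Fin n) F) ≠ c • G := by
  classical
  have hp : p.Prime := Fact.out
  obtain ⟨i0, i1, h01⟩ : ∃ i0 i1 : Fin n, i0 ≠ i1 :=
    ⟨⟨0, by omega⟩, ⟨1, by omega⟩, by simp [Fin.ext_iff]⟩
  have hne : Nonempty (Fin n) := ⟨i0⟩
  obtain ⟨E, hE⟩ : ∃ E : Matrix (Fin n) (Fin n) F,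
      E = Matrix.vecMulVec (Pi.single i0 1) (Pi.single i1 1) := ⟨_, rfl⟩
  have hT : Matrix.transvection i0 i1 (1 : F) = 1 + E := by
    rw [Matrix.transvection, hE]
    congr 1
    ext a b
    simp only [Matrix.single_apply, Matrix.vecMulVec_apply, Pi.single_apply]
    by_cases h1 : i0 = a <;> by_cases h3 : i1 = b <;> simp [h1, h3, eq_comm]
  have hdet : (Matrix.transvection i0 i1 (1 : F)).det = 1 :=
    Matrix.det_transvection_of_ne i0 i1 h01 1
  obtain ⟨x, hx⟩ : ∃ x : GL (Fin n) F,
      (x : Matrix (Fin n) (Fin n) F) = Matrix.transvection i0 i1 (1 : F) :=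
    ⟨Matrix.GeneralLinearGroup.mkOfDetNeZero (Matrix.transvection i0 i1 (1 : F))
      (ne_of_eq_of_ne hdet one_ne_zero), rfl⟩
  have hEE : E * E = 0 := by
    rw [hE, Matrix.vecMulVec_mul_vecMulVec]
    have h1 : (Pi.single i1 (1 : F) : Fin n → F) ⬝ᵥ Pi.single i0 1 = 0 := by
      rw [dotProduct_single, mul_one, Pi.single_apply, if_neg h01]
    rw [h1]
    ext a b
    simp [Matrix.vecMulVec_apply]
  have hxp : x ^ p = 1 := by
    apply Units.ext
    rw [Units.val_pow_eq_pow_val, hx, tv_pow_char p i0 i1 h01]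
    rfl
  refine ⟨x, ?_, hxp, ?_, ?_⟩
  · rw [Cfsg.Geo.specialLinear, MonoidHom.mem_ker]
    apply Units.ext
    rw [Matrix.GeneralLinearGroup.val_det_apply, hx, hdet]
    rfl
  · intro z hz
    rw [hx, hT] at hz
    have h1 := congrFun (congrFun hz i0) i1
    rw [Matrix.add_apply, Matrix.one_apply_ne h01, Matrix.smul_apply, Matrix.one_apply_ne h01,
      hE, Matrix.vecMulVec_apply, Pi.single_eq_same, Pi.single_eq_same] at h1
    simp at h1
  · intro g c hc hsim
    obtain ⟨gm, hgm⟩ : ∃ gm : Matrix (Fin n) (Fin n) F, gm = (g : Matrix (Fin n) (Fin n) F) :=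
      ⟨_, rfl⟩
    obtain ⟨gi, hgi⟩ : ∃ gi : Matrix (Fin n) (Fin n) F,
        gi = ((g⁻¹ : GL (Fin n) F) : Matrix (Fin n) (Fin n) F) := ⟨_, rfl⟩
    have hgig : gi * gm = 1 := by
      rw [hgi, hgm, ← Units.val_mul, inv_mul_cancel]
      rfl
    have hggi : gm * gi = 1 := by
      rw [hgi, hgm, ← Units.val_mul, mul_inv_cancel]
      rfl
    obtain ⟨N, hN⟩ : ∃ N : Matrix (Fin n) (Fin n) F, N = gi * E * gm := ⟨_, rfl⟩
    have hy : ((g⁻¹ * x * g : GL (Fin n) F) : Matrix (Fin n) (Fin n) F) = 1 + N := by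
      rw [Units.val_mul, Units.val_mul, hx, hT, hN, ← hgi, ← hgm, Matrix.mul_add, Matrix.add_mul,
        Matrix.mul_one, hgig]
    have hNN : N * N = 0 := by
      rw [hN]
      calc gi * E * gm * (gi * E * gm) = gi * (E * (gm * gi) * E) * gm := by
            simp only [Matrix.mul_assoc]
        _ = 0 := by rw [hggi, Matrix.mul_one, hEE, Matrix.mul_zero, Matrix.zero_mul]
    have hyp : (1 + N) ^ p = 1 := by
      have hcj : (g⁻¹ * x * g) ^ p = 1 := by
        have h := conj_pow (a := g⁻¹) (b := x) (i := p)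
        rw [inv_inv] at h
        rw [h, hxp, mul_one, inv_mul_cancel]
      rw [← hy, ← Units.val_pow_eq_pow_val, hcj]
      rfl
    rw [hy] at hsim
    have hpow : ∀ k : ℕ, ((1 + N) ^ k)ᵀ * G * (1 + N) ^ k = c ^ k • G := by
      intro k
      induction k with
      | zero => simp
      | succ k ih =>
        rw [pow_succ, Matrix.transpose_mul]
        calc (1 + N)ᵀ * ((1 + N) ^ k)ᵀ * G * ((1 + N) ^ k * (1 + N))
            = (1 + N)ᵀ * (((1 + N) ^ k)ᵀ * G * (1 + N) ^ k) * (1 + N) := by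
              simp only [Matrix.mul_assoc]
          _ = c ^ (k + 1) • G := by
              rw [ih, Matrix.mul_smul, Matrix.smul_mul, hsim, smul_smul, pow_succ]
    have hG0 : G ≠ 0 := by
      rintro rfl
      exact hG Matrix.det_zero
    obtain ⟨i, j, hij⟩ : ∃ i j, G i j ≠ 0 := by
      by_contra hcon
      push Not at hcon
      exact hG0 (Matrix.ext hcon)
    have hcp : c ^ p = 1 := by
      have h1 := hpow p
      rw [hyp, Matrix.transpose_one, Matrix.one_mul, Matrix.mul_one] at h1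
      have h3 := congrFun (congrFun h1 i) j
      rw [Matrix.smul_apply, smul_eq_mul] at h3
      have h4 : (c ^ p - 1) * G i j = 0 := by
        rw [sub_mul, one_mul, ← h3, sub_self]
      rcases mul_eq_zero.mp h4 with h5 | h5
      · exact sub_eq_zero.mp h5
      · exact absurd h5 hij
    have hc1 : c = 1 := by
      have h1 : (c - 1) ^ p = 0 := by
        rw [sub_pow_char, hcp, one_pow, sub_self]
      exact sub_eq_zero.mp ((pow_eq_zero_iff hp.ne_zero).mp h1)
    rw [hc1, one_smul] at hsim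
    have hsk := tv_core G hGs N hNN hsim
    have hGN : G * N = Matrix.vecMulVec ((G * gi) *ᵥ Pi.single i0 1) (Pi.single i1 1 ᵥ* gm) := by
      rw [hN, hE, ← Matrix.mul_assoc, ← Matrix.mul_assoc, Matrix.mul_vecMulVec,
        Matrix.vecMulVec_mul]
    rw [hGN] at hsk
    have hgid : gi.det ≠ 0 := by
      intro h0
      have h1 := congrArg Matrix.det hgig
      rw [Matrix.det_mul, h0, zero_mul, Matrix.det_one] at h1
      exact zero_ne_one h1
    have hgmd : gm.det ≠ 0 := by
      intro h0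
      have h1 := congrArg Matrix.det hgig
      rw [Matrix.det_mul, h0, mul_zero, Matrix.det_one] at h1
      exact zero_ne_one h1
    have hw : (G * gi) *ᵥ (Pi.single i0 (1 : F) : Fin n → F) ≠ 0 := by
      intro h0
      have hdd : (G * gi).det ≠ 0 := by
        rw [Matrix.det_mul]
        exact mul_ne_zero hG hgid
      have h1 := Matrix.eq_zero_of_mulVec_eq_zero hdd h0
      have h3 := congrFun h1 i0
      rw [Pi.single_eq_same, Pi.zero_apply] at h3
      exact one_ne_zero h3
    have hφ := tv_skew_rank_one h2 _ _ hw hsk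
    have h1 := Matrix.eq_zero_of_vecMul_eq_zero hgmd hφ
    have h3 := congrFun h1 i1
    rw [Pi.single_eq_same, Pi.zero_apply] at h3
    exact one_ne_zero h3

end Cfsg.Agent.Helper60.THTVBAD
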