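import Mathlib
import Cfsg.Prelude.Def_GeometricClasses
import Cfsg.Prelude.Def_Classical
import Cfsg.Agent.Helper58.TSDefs
import Cfsg.Agent.Helper45.OTBAD2A
import Cfsg.Agent.Helper31.OTNF
import Cfsg.Agent.Helper98.OPar

/-!
# Sub-CALL TSR2 (helper90), piece BADAEX (helper60)

When `-1` is a nonsquare, some involution of `Ω(Q)` has an anisotropic plane as `(-1)`-eigenspace
(abstract-`Q` version of `Helper45.OT5972.bad2a_abs`, fed with two orthogonal vectors of norm `1`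
taken from a normal-form basis).
-/

set_option autoImplicit false

namespace Cfsg.Agent.Helper60.TSR2

open Module Cfsg Cfsg.Geo Cfsg.Agent.Helper58.TS
open scoped MatrixGroups

variable {ι : Type} [Fintype ι] [DecidableEq ι] {F : Type*} [Field F] [Fintype F]

/-- two orthogonal vectors of norm `1` in a nondegenerate quadratic space of dimension `≥ 3` -/
theorem exists_orth_unit_pair (Q : QuadraticForm F (ι → F)) (h2 : (2 : F) ≠ 0)
    (hQ : (QuadraticMap.polarBilin Q).Nondegenerate) (hcard : 3 ≤ Fintype.card ι) :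
    ∃ v₁ v₂ : ι → F, Q v₁ = 1 ∧ Q v₂ = 1 ∧ QuadraticMap.polar ⇑Q v₁ v₂ = 0 := by
  classical
  have hfin : finrank F (⊤ : Submodule F (ι → F)) = Fintype.card ι := by
    rw [finrank_top, Module.finrank_fintype_fun_eq_card]
  obtain ⟨s, hs⟩ : ∃ s, Fintype.card ι = s + 1 := ⟨Fintype.card ι - 1, by omega⟩
  have hD : Cfsg.Agent.Helper90.HT.HNondegOn (Cfsg.Agent.Helper43.OT.ph Q) ⊤ := by
    intro v _ hv
    exact hQ.1 v (fun w => hv w Submodule.mem_top)
  obtain ⟨b, δ, -, -, -, horth, hone, -⟩ :=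
    Cfsg.Agent.Helper31.OT5972.ot_nf Q h2 ⊤ hD s (by rw [hfin, hs])
  have hs2 : 2 ≤ s := by omega
  have hj0 : (⟨0, by omega⟩ : Fin (s + 1)) ≠ Fin.last s := by
    intro h
    have := congrArg Fin.val h
    simp only [Fin.val_last] at this
    omega
  have hj1 : (⟨1, by omega⟩ : Fin (s + 1)) ≠ Fin.last s := by
    intro h
    have := congrArg Fin.val h
    simp only [Fin.val_last] at this
    omega
  have hj01 : (⟨0, by omega⟩ : Fin (s + 1)) ≠ ⟨1, by omega⟩ := by
    intro h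
    have := congrArg Fin.val h
    simp at this
  set u := b ⟨0, by omega⟩ with hu
  set v := b ⟨1, by omega⟩ with hv
  have huu : QuadraticMap.polar ⇑Q u u = 1 := hone _ hj0
  have hvv : QuadraticMap.polar ⇑Q v v = 1 := hone _ hj1
  have huv : QuadraticMap.polar ⇑Q u v = 0 := horth _ _ hj01
  have hvu : QuadraticMap.polar ⇑Q v u = 0 := by rw [QuadraticMap.polar_comm]; exact huv
  have hQu : Q u = 2⁻¹ := by
    have h := Cfsg.Agent.Helper43.OT.ph_self Q u
    rw [Cfsg.Agent.Helper43.OT.ph_apply, huu] at h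
    exact eq_inv_of_mul_eq_one_right h.symm
  have hQv : Q v = 2⁻¹ := by
    have h := Cfsg.Agent.Helper43.OT.ph_self Q v
    rw [Cfsg.Agent.Helper43.OT.ph_apply, hvv] at h
    exact eq_inv_of_mul_eq_one_right h.symm
  have h22 : (2 : F)⁻¹ + 2⁻¹ = 1 := by rw [← two_mul, mul_inv_cancel₀ h2]
  refine ⟨u + v, u - v, ?_, ?_, ?_⟩
  · rw [QuadraticMap.map_add (⇑Q) u v, hQu, hQv, huv, add_zero, h22]
  · rw [sub_eq_add_neg, QuadraticMap.map_add (⇑Q) u (-v), QuadraticMap.map_neg, QuadraticMap.polar_neg_right,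
      hQu, hQv, huv, neg_zero, add_zero, h22]
  · rw [QuadraticMap.polar_add_left, QuadraticMap.polar_sub_right, QuadraticMap.polar_sub_right,
      huu, hvv, huv, hvu]
    ring

/-- BADAEX -/
theorem r2_bad_a_ex (Q : (ι → F) → F) (hQ : IsNondegenerateQuadraticForm Q) (h2 : (2 : F) ≠ 0)
    (hm1 : ¬ IsSquare (-1 : F)) (hcard : 3 ≤ Fintype.card ι) :
    ∃ g : ↥(Cfsg.isometryGroup F Q), g ∈ Cfsg.Omega F Q ∧
      ((g : GL ι F) : Matrix ι ι F) * ((g : GL ι F) : Matrix ι ι F) = 1 ∧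
      finrank F (LinearMap.ker (Matrix.toLin' ((g : GL ι F) : Matrix ι ι F) + 1)) = 2 ∧
      ∀ w ∈ LinearMap.ker (Matrix.toLin' ((g : GL ι F) : Matrix ι ι F) + 1), Q w = 0 → w = 0 := by
  obtain ⟨v₁, v₂, h1, h2', h12⟩ := exists_orth_unit_pair (Cfsg.Agent.Helper98.op_qf Q hQ) h2
    (Cfsg.Agent.Helper98.op_qf_nondeg Q hQ) hcard
  exact Cfsg.Agent.Helper45.OT5972.bad2a_abs (Cfsg.Agent.Helper98.op_qf Q hQ) h2
    (Cfsg.Agent.Helper98.op_qf_nondeg Q hQ) (by omega) hm1 v₁ v₂ h1 h2' h12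

end Cfsg.Agent.Helper60.TSR2
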